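import Cfsg.Prelude.Def_SporadicCombinatorics

/-!
The hexacode over a field of order four, computed through the four codes `0, 1, ω, ω²` as `Fin 4`.
-/

set_option autoImplicit false
set_option linter.unusedSectionVars false

namespace CfsgLib.Golay.Hexacode

open Cfsg

/-- Addition of the four field elements coded as `0, 1, ω, ω²`. -/
def addQ (a b : Fin 4) : Fin 4 :=
  (![![0, 1, 2, 3], ![1, 0, 3, 2], ![2, 3, 0, 1], ![3, 2, 1, 0]] : Fin 4 → Fin 4 → Fin 4) a b

/-- Multiplication of the four field elements coded as `0, 1, ω, ω²`. -/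
def mulQ (a b : Fin 4) : Fin 4 :=
  (![![0, 0, 0, 0], ![0, 1, 2, 3], ![0, 2, 3, 1], ![0, 3, 1, 2]] : Fin 4 → Fin 4 → Fin 4) a b

/-- The first generator. -/
def g1 : Fin 6 → Fin 4 := ![2, 3, 3, 2, 3, 2]
/-- The second generator. -/
def g2 : Fin 6 → Fin 4 := ![3, 2, 2, 3, 3, 2]
/-- The third generator. -/
def g3 : Fin 6 → Fin 4 := ![3, 2, 3, 2, 2, 3]

/-- The word with given coefficients. -/
def hexWord (t : Fin 4 × Fin 4 × Fin 4) (i : Fin 6) : Fin 4 :=
  addQ (addQ (mulQ t.1 (g1 i)) (mulQ t.2.1 (g2 i))) (mulQ t.2.2 (g3 i))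

/-- The coefficients, read off from the first three positions. -/
def hexCoef (y : Fin 6 → Fin 4) : Fin 4 × Fin 4 × Fin 4 :=
  (addQ (mulQ 2 (y 0)) (mulQ 3 (y 1)), addQ (addQ (mulQ 3 (y 0)) (mulQ 3 (y 1))) (y 2),
    addQ (y 1) (y 2))

/-- Membership test. -/
def inH (y : Fin 6 → Fin 4) : Bool := (List.finRange 6).all fun i => hexWord (hexCoef y) i == y i

theorem inH_hexWord : ∀ t, inH (hexWord t) = true := by decide +kernel

theorem inH_iff {y : Fin 6 → Fin 4} : inH y = true ↔ ∃ t, hexWord t = y := by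
  refine ⟨fun h => ⟨hexCoef y, funext fun i => ?_⟩, fun ⟨t, ht⟩ => ht ▸ inH_hexWord t⟩
  exact beq_iff_eq.1 (List.all_eq_true.1 h i (List.mem_finRange i))

theorem hexWord_injective : Function.Injective hexWord := by
  intro s t h
  have key : ∀ t, hexCoef (hexWord t) = t := by decide +kernel
  rw [← key s, h, key]

variable {F : Type*} [Field F]

/-- The decoding `0, 1, ω, ω²`. -/
def toF (ω : F) : Fin 4 → F := ![0, 1, ω, ω ^ 2]

variable [Fintype F] [DecidableEq F] {ω : F}

theorem two_eq_zero (hF : Fintype.card F = 4) : (2 : F) = 0 := by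
  have h : ((Fintype.card F : ℕ) : F) = 0 := FiniteField.cast_card_eq_zero F
  rw [hF] at h
  have : (2 : F) * 2 = 0 := by rw [← h]; norm_num
  simpa using this

theorem toF_add (hF : Fintype.card F = 4) (hω : ω ^ 2 + ω + 1 = 0) (a b : Fin 4) :
    toF ω (addQ a b) = toF ω a + toF ω b := by
  have h2 := two_eq_zero hF
  fin_cases a <;> fin_cases b <;> simp [toF, addQ] <;> grind

theorem toF_mul (hF : Fintype.card F = 4) (hω : ω ^ 2 + ω + 1 = 0) (a b : Fin 4) :
    toF ω (mulQ a b) = toF ω a * toF ω b := by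
  have h2 := two_eq_zero hF
  fin_cases a <;> fin_cases b <;> simp [toF, mulQ] <;> grind

theorem toF_injective (hF : Fintype.card F = 4) (hω : ω ^ 2 + ω + 1 = 0) :
    Function.Injective (toF ω) := by
  have h2 := two_eq_zero hF
  have h1 : ω ≠ 1 := by
    rintro rfl
    exact one_ne_zero (by linear_combination hω - h2 : (1 : F) = 0)
  have h0 : ω ≠ 0 := by
    rintro rfl
    simp at hω
  intro a b
  fin_cases a <;> fin_cases b <;> simp [toF] <;> grind

theorem toF_surjective (hF : Fintype.card F = 4) (hω : ω ^ 2 + ω + 1 = 0) :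
    Function.Surjective (toF ω) :=
  ((Fintype.bijective_iff_injective_and_card _).2
    ⟨toF_injective hF hω, by rw [hF, Fintype.card_fin]⟩).2

theorem toF_comp_g (ω : F) : toF ω ∘ g1 = ![ω, ω ^ 2, ω ^ 2, ω, ω ^ 2, ω] ∧
    toF ω ∘ g2 = ![ω ^ 2, ω, ω, ω ^ 2, ω ^ 2, ω] ∧
    toF ω ∘ g3 = ![ω ^ 2, ω, ω ^ 2, ω, ω, ω ^ 2] := by
  refine ⟨?_, ?_, ?_⟩ <;> funext i <;> fin_cases i <;> rfl

theorem mem_hexacode_iff (hF : Fintype.card F = 4) (hω : ω ^ 2 + ω + 1 = 0) {x : Fin 6 → F} :
    x ∈ hexacode F ω ↔ ∃ t, toF ω ∘ hexWord t = x := by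
  obtain ⟨e1, e2, e3⟩ := toF_comp_g ω
  have key : ∀ t : Fin 4 × Fin 4 × Fin 4, toF ω ∘ hexWord t = toF ω t.1 • toF ω ∘ g1 +
      (toF ω t.2.1 • toF ω ∘ g2 + toF ω t.2.2 • toF ω ∘ g3) := by
    intro t
    funext i
    simp [hexWord, toF_add hF hω, toF_mul hF hω, add_assoc]
  rw [hexacode, ← e1, ← e2, ← e3, Submodule.mem_span_insert]
  constructor
  · rintro ⟨a, z, hz, rfl⟩
    obtain ⟨b, c, rfl⟩ := Submodule.mem_span_pair.1 hz
    obtain ⟨a, rfl⟩ := toF_surjective hF hω a
    obtain ⟨b, rfl⟩ := toF_surjective hF hω b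
    obtain ⟨c, rfl⟩ := toF_surjective hF hω c
    exact ⟨(a, b, c), key _⟩
  · rintro ⟨t, rfl⟩
    exact ⟨_, _, Submodule.mem_span_pair.2 ⟨_, _, rfl⟩, key t⟩

theorem toF_comp_injective (hF : Fintype.card F = 4) (hω : ω ^ 2 + ω + 1 = 0) :
    Function.Injective fun t => toF ω ∘ hexWord t :=
  fun _ _ h => hexWord_injective (((toF_injective hF hω).comp_left) h)

theorem natCard_hexacode (hF : Fintype.card F = 4) (hω : ω ^ 2 + ω + 1 = 0) :
    Nat.card ↥(hexacode F ω) = 64 := by
  have e : (hexacode F ω : Set (Fin 6 → F)) = Set.range fun t => toF ω ∘ hexWord t :=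
    Set.ext fun x => (mem_hexacode_iff hF hω).trans Iff.rfl
  show Nat.card ↥((hexacode F ω : Set (Fin 6 → F))) = 64
  rw [e, Nat.card_range_of_injective (toF_comp_injective hF hω)]
  simp

theorem weight_comp (hF : Fintype.card F = 4) (hω : ω ^ 2 + ω + 1 = 0) (y : Fin 6 → Fin 4) :
    (Finset.univ.filter fun i => (toF ω ∘ y) i ≠ 0).card =
      (Finset.univ.filter fun i => y i ≠ 0).card := by
  congr 1
  refine Finset.filter_congr fun i _ => ?_
  show toF ω (y i) ≠ 0 ↔ _
  exact (toF_injective hF hω).ne_iff' rfl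

theorem ncard_weight (hF : Fintype.card F = 4) (hω : ω ^ 2 + ω + 1 = 0) (k : ℕ) :
    {x : Fin 6 → F | x ∈ hexacode F ω ∧ (Finset.univ.filter fun i => x i ≠ 0).card = k}.ncard =
      (Finset.univ.filter fun t => (Finset.univ.filter fun i => hexWord t i ≠ 0).card = k).card := by
  rw [← Set.ncard_coe_finset, ← Set.ncard_image_of_injective _ (toF_comp_injective hF hω)]
  congr 1
  ext x
  simp only [Set.mem_ofPred_eq, Finset.coe_filter, Set.mem_image, Finset.mem_univ, true_and,
    mem_hexacode_iff hF hω]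
  constructor
  · rintro ⟨⟨t, rfl⟩, hk⟩; exact ⟨t, (weight_comp hF hω _) ▸ hk, rfl⟩
  · rintro ⟨t, hk, rfl⟩; exact ⟨⟨t, rfl⟩, (weight_comp hF hω _).trans hk⟩

/-! ### Monomial automorphisms -/

/-- Preservation test for the map permuting by `s` and scaling by `ω ^ k`. -/
def okQ (s : Fin 6 → Fin 6) (k : Fin 6 → Fin 3) : Bool :=
  (inH fun i => mulQ (k i).succ (g1 (s i))) && (inH fun i => mulQ (k i).succ (g2 (s i))) &&
    (inH fun i => mulQ (k i).succ (g3 (s i)))

theorem diag_checks : ∀ a b c d e f : Fin 3, okQ id ![a, b, c, d, e, f] = true →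
    a = b ∧ b = c ∧ c = d ∧ d = e ∧ e = f := by decide +kernel

theorem swap01_checks : ∀ a b c d e f : Fin 3,
    okQ (Equiv.swap (0 : Fin 6) 1) ![a, b, c, d, e, f] = false := by decide +kernel

/-- Base-4 packed scalars for the maps along `swap a b * swap 0 1`. -/
def witL : List ℕ := [0, 0, 1536, 2304, 96, 144, 0, 0, 2304, 1536, 144, 96, 1536, 2304, 0, 0, 1368,
  2724, 2304, 1536, 0, 0, 2724, 1368, 96, 144, 1368, 2724, 0, 0, 144, 96, 2724, 1368, 0, 0]

/-- Base-4 packed scalars for the maps along `swap 0 1 * swap a b`. -/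
def witR : List ℕ := [0, 0, 2304, 1536, 144, 96, 0, 0, 1536, 2304, 96, 144, 2304, 1536, 0, 0, 1368,
  2724, 1536, 2304, 0, 0, 2724, 1368, 144, 96, 1368, 2724, 0, 0, 96, 144, 2724, 1368, 0, 0]

/-- Unpack. -/
def unpackK (n : ℕ) (i : Fin 6) : Fin 3 := ⟨n / 4 ^ i.val % 4 % 3, Nat.mod_lt _ (by norm_num)⟩

theorem swap_checks : ∀ a b : Fin 6, a ≠ b →
    okQ (fun i => Equiv.swap (0 : Fin 6) 1 (Equiv.swap a b i))
      (unpackK (witL.getD (6 * a.val + b.val) 0)) = true ∧
    okQ (fun i => Equiv.swap a b (Equiv.swap (0 : Fin 6) 1 i))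
      (unpackK (witR.getD (6 * a.val + b.val) 0)) = true := by decide +kernel

variable (F ω) in
/-- The permutation parts of the monomial automorphisms. -/
def permParts : Set (Equiv.Perm (Fin 6)) :=
  {σ | ∃ c : Fin 6 → Fˣ, ∀ x ∈ hexacode F ω, monomialMap σ c x ∈ hexacode F ω}

omit [Fintype F] [DecidableEq F] in
theorem monomial_mul (σ τ : Equiv.Perm (Fin 6)) (c d : Fin 6 → Fˣ) (x : Fin 6 → F) :
    monomialMap σ c (monomialMap τ d x) = monomialMap (σ * τ) (fun i => c i * d (σ.symm i)) x := by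
  funext i
  simp [monomialMap, Equiv.Perm.mul_def, mul_assoc]

omit [Fintype F] [DecidableEq F] in
theorem monomial_injective (σ : Equiv.Perm (Fin 6)) (c : Fin 6 → Fˣ) :
    Function.Injective (monomialMap σ c) := by
  intro x y h
  funext i
  simpa [monomialMap] using congrFun h (σ i)

/-- The scalar `ω ^ k`. -/
noncomputable def toU (hF : Fintype.card F = 4) (hω : ω ^ 2 + ω + 1 = 0) (k : Fin 3) : Fˣ :=
  Units.mk0 (toF ω k.succ) fun h =>
    Fin.succ_ne_zero k ((toF_injective hF hω) (h.trans (rfl : (0 : F) = toF ω 0)))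

theorem toU_surjective (hF : Fintype.card F = 4) (hω : ω ^ 2 + ω + 1 = 0) :
    Function.Surjective (toU hF hω) := by
  intro u
  obtain ⟨a, ha⟩ := toF_surjective hF hω (u : F)
  obtain ⟨k, rfl⟩ := Fin.exists_succ_eq.2 (show a ≠ 0 from fun h => u.ne_zero (by
    rw [← ha, h]; rfl))
  exact ⟨k, Units.ext ha⟩

theorem preserves_iff (hF : Fintype.card F = 4) (hω : ω ^ 2 + ω + 1 = 0) (σ : Equiv.Perm (Fin 6))
    (k : Fin 6 → Fin 3) :
    (∀ x ∈ hexacode F ω, monomialMap σ (toU hF hω ∘ k) x ∈ hexacode F ω) ↔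
      okQ σ.symm k = true := by
  have e : ∀ y : Fin 6 → Fin 4, monomialMap σ (toU hF hω ∘ k) (toF ω ∘ y) ∈ hexacode F ω ↔
      inH (fun i => mulQ (k i).succ (y (σ.symm i))) = true := by
    intro y
    rw [show monomialMap σ (toU hF hω ∘ k) (toF ω ∘ y) =
        toF ω ∘ (fun i => mulQ (k i).succ (y (σ.symm i))) from
      funext fun i => (toF_mul hF hω (k i).succ (y (σ.symm i))).symm, mem_hexacode_iff hF hω, inH_iff]
    exact exists_congr fun t => ((toF_injective hF hω).comp_left).eq_iff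
  obtain ⟨e1, e2, e3⟩ := toF_comp_g ω
  simp only [okQ, Bool.and_eq_true, ← e]
  constructor
  · intro h
    refine ⟨⟨h _ ?_, h _ ?_⟩, h _ ?_⟩ <;>
      simp only [e1, e2, e3, hexacode] <;> exact Submodule.subset_span (by simp)
  · rintro ⟨⟨h1, h2⟩, h3⟩ x hx
    induction hx using Submodule.span_induction with
    | mem x hx =>
      rcases hx with rfl | rfl | hx
      · exact e1 ▸ h1
      · exact e2 ▸ h2
      · rw [Set.mem_singleton_iff.1 hx]; exact e3 ▸ h3
    | zero => convert Submodule.zero_mem (hexacode F ω); funext i; simp [monomialMap]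
    | add u v _ _ hu hv =>
      convert Submodule.add_mem _ hu hv; funext i; simp [monomialMap, mul_add]
    | smul a u _ hu =>
      convert Submodule.smul_mem _ a hu; funext i; simp [monomialMap, mul_left_comm]

theorem diag_scalar (hF : Fintype.card F = 4) (hω : ω ^ 2 + ω + 1 = 0) (c : Fin 6 → Fˣ)
    (hc : ∀ x ∈ hexacode F ω, monomialMap 1 c x ∈ hexacode F ω) : ∀ i j, c i = c j := by
  choose k hk using fun i => toU_surjective hF hω (c i)
  have h := (preserves_iff hF hω 1 k).1 (by rwa [show toU hF hω ∘ k = c from funext hk])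
  have hv : k = ![k 0, k 1, k 2, k 3, k 4, k 5] := by funext i; fin_cases i <;> rfl
  rw [hv] at h
  obtain ⟨a, b, c', d, e⟩ := diag_checks _ _ _ _ _ _ h
  have key : ∀ i, k i = k 0 := by
    intro i
    fin_cases i
    · rfl
    · exact a.symm
    · exact (a.trans b).symm
    · exact ((a.trans b).trans c').symm
    · exact (((a.trans b).trans c').trans d).symm
    · exact ((((a.trans b).trans c').trans d).trans e).symm
  intro i j
  rw [← hk i, ← hk j, key i, key j]

theorem mul_mem_permParts {σ τ : Equiv.Perm (Fin 6)} (hσ : σ ∈ permParts F ω)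
    (hτ : τ ∈ permParts F ω) : σ * τ ∈ permParts F ω := by
  obtain ⟨c, hc⟩ := hσ
  obtain ⟨d, hd⟩ := hτ
  exact ⟨_, fun x hx => monomial_mul σ τ c d x ▸ hc _ (hd x hx)⟩

theorem swap_mem_permParts (hF : Fintype.card F = 4) (hω : ω ^ 2 + ω + 1 = 0) {a b : Fin 6}
    (hab : a ≠ b) : Equiv.swap a b * Equiv.swap 0 1 ∈ permParts F ω ∧
      Equiv.swap 0 1 * Equiv.swap a b ∈ permParts F ω := by
  obtain ⟨h1, h2⟩ := swap_checks a b hab
  exact ⟨⟨_, (preserves_iff hF hω _ _).2 h1⟩, ⟨_, (preserves_iff hF hω _ _).2 h2⟩⟩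

theorem mem_permParts_aux (hF : Fintype.card F = 4) (hω : ω ^ 2 + ω + 1 = 0)
    (σ : Equiv.Perm (Fin 6)) :
    (Equiv.Perm.sign σ = 1 → σ ∈ permParts F ω) ∧
      (Equiv.Perm.sign σ = -1 → Equiv.swap 0 1 * σ ∈ permParts F ω) := by
  induction σ using Equiv.Perm.swap_induction_on with
  | one => exact ⟨fun _ => ⟨fun _ => 1, fun x hx => by convert hx; funext i; exact one_mul _⟩,
      fun h => by simp at h⟩
  | swap_mul f a b hab ih =>
    obtain ⟨hl, hr⟩ := swap_mem_permParts hF hω hab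
    rw [map_mul, Equiv.Perm.sign_swap hab]
    constructor
    · intro h
      have := mul_mem_permParts hl (ih.2 (by
        rcases Int.units_eq_one_or (Equiv.Perm.sign f) with h' | h' <;> simp_all))
      rwa [mul_assoc, Equiv.swap_mul_self_mul] at this
    · intro h
      have := mul_mem_permParts hr (ih.1 (by
        rcases Int.units_eq_one_or (Equiv.Perm.sign f) with h' | h' <;> simp_all))
      rwa [mul_assoc] at this

theorem permParts_eq (hF : Fintype.card F = 4) (hω : ω ^ 2 + ω + 1 = 0) :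
    permParts F ω = (alternatingGroup (Fin 6) : Set (Equiv.Perm (Fin 6))) := by
  ext σ
  rw [SetLike.mem_coe, Equiv.Perm.mem_alternatingGroup]
  refine ⟨fun h => ?_, (mem_permParts_aux hF hω σ).1⟩
  rcases Int.units_eq_one_or (Equiv.Perm.sign σ) with h' | h'
  · exact h'
  · exfalso
    have h1 := (mem_permParts_aux hF hω σ⁻¹).2 (by simp [h'])
    obtain ⟨c, hc⟩ := mul_mem_permParts h1 h
    rw [inv_mul_cancel_right] at hc
    choose k hk using fun i => toU_surjective hF hω (c i)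
    have h2 := (preserves_iff hF hω _ k).1 (by rwa [show toU hF hω ∘ k = c from funext hk])
    have hv : k = ![k 0, k 1, k 2, k 3, k 4, k 5] := by funext i; fin_cases i <;> rfl
    rw [hv, Equiv.symm_swap, swap01_checks] at h2
    exact Bool.false_ne_true h2

theorem natCard_monomial (hF : Fintype.card F = 4) (hω : ω ^ 2 + ω + 1 = 0) :
    Nat.card {f : Equiv.Perm (Fin 6) × (Fin 6 → Fˣ) //
      ∀ x ∈ hexacode F ω, monomialMap f.1 f.2 x ∈ hexacode F ω} = 1080 := by
  have hA := permParts_eq (F := F) hF hω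
  have hex : ∀ σ : alternatingGroup (Fin 6), ∃ c : Fin 6 → Fˣ, ∀ x ∈ hexacode F ω,
      monomialMap (σ : Equiv.Perm (Fin 6)) c x ∈ hexacode F ω := fun σ =>
    (Set.ext_iff.1 hA σ).2 σ.2
  choose c hc using hex
  let e : alternatingGroup (Fin 6) × Fˣ → {f : Equiv.Perm (Fin 6) × (Fin 6 → Fˣ) //
      ∀ x ∈ hexacode F ω, monomialMap f.1 f.2 x ∈ hexacode F ω} := fun p =>
    ⟨(p.1, fun i => p.2 * c p.1 i), fun x hx => by
      convert Submodule.smul_mem _ (p.2 : F) (hc p.1 x hx)
      funext i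
      simp [monomialMap, mul_assoc]⟩
  have he : Function.Bijective e := by
    constructor
    · rintro ⟨σ, u⟩ ⟨τ, v⟩ h
      obtain ⟨h1, h2⟩ := Prod.ext_iff.1 (congrArg Subtype.val h)
      cases Subtype.ext h1
      exact Prod.ext rfl (mul_right_cancel (congrFun h2 0))
    · rintro ⟨⟨σ, d⟩, hd⟩
      let σ' : alternatingGroup (Fin 6) := ⟨σ, (Set.ext_iff.1 hA σ).1 ⟨d, hd⟩⟩
      have hdiag : ∀ x ∈ hexacode F ω,
          monomialMap 1 (fun i => d i / c σ' i) x ∈ hexacode F ω := by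
        intro x hx
        let M : hexacode F ω → hexacode F ω := fun y => ⟨monomialMap σ (c σ') y.1, hc σ' _ y.2⟩
        have hM : Function.Surjective M := Finite.surjective_of_injective fun y z h =>
          Subtype.ext (monomial_injective σ (c σ') (congrArg Subtype.val h))
        obtain ⟨y, hy⟩ := hM ⟨x, hx⟩
        rw [← show monomialMap σ (c σ') y.1 = x from congrArg Subtype.val hy, monomial_mul]
        convert hd y.1 y.2 using 2
        · exact one_mul σ
        · exact div_mul_cancel _ _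
      have hs := diag_scalar hF hω _ hdiag
      refine ⟨(σ', d 0 / c σ' 0), Subtype.ext (Prod.ext rfl (funext fun i => ?_))⟩
      show d 0 / c σ' 0 * c σ' i = d i
      rw [hs 0 i, div_mul_cancel]
  rw [← Nat.card_eq_of_bijective e he, Nat.card_prod, Nat.card_units, nat_card_alternatingGroup]
  simp [hF, Nat.factorial]

end CfsgLib.Golay.Hexacode
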