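import Cfsg.Agent.Lib.Golay.Quartets
import Cfsg.Agent.Lib.Golay.TblHom
import Cfsg.Agent.Lib.Golay.M11Data

/-!
Common lemmas for subgroups of M11, the stabiliser of a dodecad and one of its points in `Cfsg.M24`.
-/

set_option autoImplicit false

namespace CfsgLib.Golay

open Cfsg
open scoped Pointwise

local notation "PP" => Equiv.Perm GolayPt

/-- The table is in `M24` and fixes each of the sets. -/
def fixesSets (sets : List ℕ) (t : ℕ) : Bool := inM24 t && sets.all fun s => imgMask t s == s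

theorem mem_stabK_of_fixesSets {g : PP} {t : ℕ} {sets : List ℕ} (h : IsTbl g t)
    (ht : fixesSets sets t = true) : g ∈ stabK sets := by
  simp only [fixesSets, Bool.and_eq_true, List.all_eq_true, beq_iff_eq] at ht
  exact mem_stabK_of_isTbl h ht.1 ht.2

theorem exists_embedding_five {d : Finset GolayPt} (hd : d ∈ dodecads) {p q r : GolayPt} (hp : p ∈ d)
    (hq : q ∈ d) (hr : r ∈ d) (hpq : p ≠ q) (hpr : p ≠ r) (hqr : q ≠ r) :
    ∃ c ∈ M24, c • unmask dodMask = d ∧ c (pt 0) = p ∧ c (pt 1) = q ∧ c (pt 2) = r := by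
  classical
  obtain ⟨s, hs, hsc⟩ := Finset.exists_subset_card_eq (s := ((d.erase p).erase q).erase r)
    (show 2 ≤ (((d.erase p).erase q).erase r).card by
      rw [Finset.card_erase_of_mem (Finset.mem_erase.2 ⟨hqr.symm,
        Finset.mem_erase.2 ⟨hpr.symm, hr⟩⟩), Finset.card_erase_of_mem
        (Finset.mem_erase.2 ⟨hpq.symm, hq⟩), Finset.card_erase_of_mem hp, hd.2]
      norm_num)
  obtain ⟨a, b, hab, rfl⟩ := Finset.card_eq_two.1 hsc
  have ha := hs (show a ∈ ({a, b} : Finset GolayPt) by simp)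
  have hb := hs (show b ∈ ({a, b} : Finset GolayPt) by simp)
  simp only [Finset.mem_erase] at ha hb
  obtain ⟨ha3, ha2, ha1, had⟩ := ha
  obtain ⟨hb3, hb2, hb1, hbd⟩ := hb
  let y : Fin 5 ↪ GolayPt := ⟨![p, q, r, a, b], by
    intro i j h
    fin_cases i <;> fin_cases j <;> simp at h <;> simp_all [eq_comm]⟩
  have hy : ∀ i, y i ∈ d := by
    intro i
    show (![p, q, r, a, b] : Fin 5 → GolayPt) i ∈ d
    fin_cases i <;> assumption
  obtain ⟨c, hc, hcd, hci⟩ := exists_map_dodecad_five hd y hy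
  exact ⟨c, hc, hcd, hci 0, hci 1, hci 2⟩

theorem fix_singleton_mem {sets : List ℕ} {g : PP} {i : ℕ} (hi : i < 24) :
    g ∈ stabK (2 ^ i :: sets) ↔ g ∈ stabK sets ∧ g (pt i) = pt i := by
  rw [stabK_cons_two_pow hi, Subgroup.mem_inf, MulAction.mem_stabilizer_iff, Equiv.Perm.smul_def]

theorem mem_stabK_dodPoint {g : PP} : g ∈ stabK [1, dodMask] ↔
    g ∈ M24 ∧ g • unmask dodMask = unmask dodMask ∧ g (pt 0) = pt 0 := by
  rw [show (1 : ℕ) = 2 ^ 0 by norm_num, fix_singleton_mem (by norm_num), mem_stabK]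
  simp [and_assoc]

end CfsgLib.Golay
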