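import Cfsg.Agent.Lib.Golay.M11Common
import Cfsg.Agent.Lib.ClassicalLinear.Card

/-!
Involution centralisers in M11 are GL(2, 3).
-/

set_option autoImplicit false

namespace CfsgLib.Golay

open Cfsg
open scoped Pointwise

local notation "PP" => Equiv.Perm GolayPt

/-- The table of a matrix centralising the standard involution. -/
def involGLTbl (a b c d : ZMod 3) : ℕ :=
  m11GLTbls.getD (27 * a.val + 9 * b.val + 3 * c.val + d.val) 0

theorem involGL_checks : (∀ a b c d : ZMod 3, okTbl (involGLTbl a b c d) = true) ∧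
    (∀ a b c d : ZMod 3, a * d - b * c ≠ 0 →
      fixesSets [1, dodMask] (involGLTbl a b c d) = true ∧
      conjTbl (involGLTbl a b c d) m11Invol m11Invol = true ∧
      (isIdTbl (involGLTbl a b c d) = true → a = 1 ∧ b = 0 ∧ c = 0 ∧ d = 1) ∧
      ∀ e f g h : ZMod 3, e * h - f * g ≠ 0 →
        isCompTbl (involGLTbl (a * e + b * g) (a * f + b * h) (c * e + d * g) (c * f + d * h))
          (involGLTbl a b c d) (involGLTbl e f g h) = true) := by
  decide +kernel

/-- Five points on which the standard involution is determined. -/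
def involFive : Fin 5 → GolayPt := ![pt 0, pt 1, pt 6, pt 3, pt 4]

theorem invol_checks :
    (okTbl m11Invol = true ∧ fixesSets [1, dodMask] m11Invol = true ∧
      isCompTbl (genTbls.getD 3 0) m11Invol m11Invol = true ∧ isIdTbl (genTbls.getD 3 0) = true) ∧
    Function.Injective involFive ∧ (∀ i, involFive i ∈ unmask dodMask) ∧
    (∀ i, i ≠ 0 → involFive i ∈ unmask 13146) ∧
    tblAt m11Invol 1 = 6 ∧ tblAt m11Invol 6 = 1 ∧ tblAt m11Invol 3 = 4 ∧ tblAt m11Invol 4 = 3 ∧
    (∀ p, p ∈ unmask 13146 ↔ p ∈ unmask dodMask ∧ tblAt m11Invol (idx p) ≠ idx p) := by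
  decide +kernel

theorem count_pairs : ((unmask 13146).sigma fun a =>
    (unmask 13146).filter fun b => idx b ≠ idx a ∧ idx b ≠ tblAt m11Invol (idx a)).card = 48 := by
  decide +kernel

theorem unique_five {g h : PP} (hg : g ∈ M24) (hgd : g • unmask dodMask = unmask dodMask)
    (hh : h ∈ M24) (hhd : h • unmask dodMask = unmask dodMask) (x : Fin 5 ↪ GolayPt)
    (hx : ∀ i, x i ∈ unmask dodMask) (he : ∀ i, g (x i) = h (x i)) : g = h := by
  have hy : ∀ i, (x.trans g.toEmbedding) i ∈ unmask dodMask := fun i =>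
    hgd ▸ Finset.smul_mem_smul_finset (hx i)
  obtain ⟨k, -, hk⟩ := sharply_five_transitive dodMask_mem x (x.trans g.toEmbedding) hx hy
  have h1 := hk ⟨⟨g, hg⟩, hgd⟩ fun i => rfl
  have h2 := hk ⟨⟨h, hh⟩, hhd⟩ fun i => (he i).symm
  exact congrArg (fun z : MulAction.stabilizer M24 (unmask dodMask) => ((z : M24) : PP))
    (h1.trans h2.symm)

theorem exists_stdInvol : ∃ x0 ∈ stabK [1, dodMask], IsTbl x0 m11Invol ∧ x0 * x0 = 1 := by
  obtain ⟨⟨hok, hfix, hcomp, hid⟩, -⟩ := invol_checks
  obtain ⟨x0, hx0⟩ := exists_isTbl hok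
  exact ⟨x0, mem_stabK_of_fixesSets hx0 hfix, hx0, (hx0.mul hx0 hcomp).isIdTbl_iff.1 hid⟩

theorem invol_conj {x x0 : PP} (hx : x ∈ stabK [1, dodMask]) (hx2 : x * x = 1) (hx1 : x ≠ 1)
    (hx0K : x0 ∈ stabK [1, dodMask]) (hx0 : IsTbl x0 m11Invol) :
    ∃ g ∈ stabK [1, dodMask], g * x0 * g⁻¹ = x := by
  classical
  obtain ⟨-, hinj, hmem, -, t1, t6, t3, t4, -⟩ := invol_checks
  obtain ⟨hxM, hxd, hxp⟩ := mem_stabK_dodPoint.1 hx
  have hxx : ∀ a, x (x a) = a := fun a => by rw [← Equiv.Perm.mul_apply, hx2, Equiv.Perm.one_apply]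
  have hxmem : ∀ a ∈ unmask dodMask, x a ∈ unmask dodMask := fun a ha =>
    hxd ▸ Finset.smul_mem_smul_finset ha
  let M := (unmask dodMask).filter fun a => x a ≠ a
  have hM : 4 ≤ M.card := by
    by_contra hlt
    have h8 : 5 ≤ ((unmask dodMask).filter fun a => x a = a).card := by
      have := Finset.card_filter_add_card_filter_not (s := unmask dodMask) fun a => x a = a
      rw [dodMask_card] at this
      change _ + M.card = _ at this
      omega
    obtain ⟨s, hs, hsc⟩ := Finset.exists_subset_card_eq h8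
    let e : Fin 5 ↪ GolayPt :=
      (Finset.equivFinOfCardEq hsc).symm.toEmbedding.trans (Function.Embedding.subtype _)
    have he : ∀ i, e i ∈ (unmask dodMask).filter fun a => x a = a := fun i =>
      hs ((Finset.equivFinOfCardEq hsc).symm i).2
    refine hx1 (unique_five hxM hxd (one_mem _) (one_smul _ _) e
      (fun i => (Finset.mem_filter.1 (he i)).1) fun i => (Finset.mem_filter.1 (he i)).2)
  obtain ⟨u, hu⟩ := Finset.card_pos.1 (show 0 < M.card by omega)
  obtain ⟨w, hw⟩ := Finset.card_pos.1 (show 0 < ((M.erase u).erase (x u)).card by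
    have := Finset.pred_card_le_card_erase (s := M) (a := u)
    have := Finset.pred_card_le_card_erase (s := M.erase u) (a := x u)
    omega)
  simp only [Finset.mem_erase] at hw
  obtain ⟨hwxu, hwu, hwM⟩ := hw
  obtain ⟨hud, hux⟩ := Finset.mem_filter.1 hu
  obtain ⟨hwd, hwx⟩ := Finset.mem_filter.1 hwM
  have hp0 : pt 0 ∈ unmask dodMask := hmem 0
  have hne : ∀ a, x a ≠ a → a ≠ pt 0 ∧ x a ≠ pt 0 := fun a ha =>
    ⟨fun e => ha (e ▸ hxp), fun e => ha (by rw [e, ← hxx a, e, hxp])⟩
  obtain ⟨n1, n2⟩ := hne u hux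
  obtain ⟨n3, n4⟩ := hne w hwx
  have n5 : u ≠ x w := fun e => hwxu (by rw [e, hxx])
  have n6 : x u ≠ x w := fun e => hwu (x.injective e).symm
  let y : Fin 5 ↪ GolayPt := ⟨![pt 0, u, x u, w, x w], by
    intro i j h
    fin_cases i <;> fin_cases j <;>
      first
        | rfl
        | (simp at h <;> first
            | exact absurd h n1
            | exact absurd h.symm n1
            | exact absurd h n2
            | exact absurd h.symm n2
            | exact absurd h n3
            | exact absurd h.symm n3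
            | exact absurd h n4
            | exact absurd h.symm n4
            | exact absurd h n5
            | exact absurd h.symm n5
            | exact absurd h n6
            | exact absurd h.symm n6
            | exact absurd h hwu
            | exact absurd h.symm hwu
            | exact absurd h hwxu
            | exact absurd h.symm hwxu
            | exact absurd h hux
            | exact absurd h.symm hux
            | exact absurd h hwx
            | exact absurd h.symm hwx)⟩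
  have hy : ∀ i, y i ∈ unmask dodMask := by
    intro i
    show (![pt 0, u, x u, w, x w] : Fin 5 → GolayPt) i ∈ _
    fin_cases i
    exacts [hp0, hud, hxmem u hud, hwd, hxmem w hwd]
  obtain ⟨g, hg, -⟩ := sharply_five_transitive dodMask_mem ⟨involFive, hinj⟩ y hmem hy
  have hgd : ((g : M24) : PP) • unmask dodMask = unmask dodMask := g.2
  generalize hg' : ((g : M24) : PP) = G at hg hgd
  have hGM : G ∈ M24 := hg' ▸ (g : M24).2
  have g0 : G (pt 0) = pt 0 := hg 0
  have g1 : G (pt 1) = u := hg 1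
  have g2 : G (pt 6) = x u := hg 2
  have g3 : G (pt 3) = w := hg 3
  have g4 : G (pt 4) = x w := hg 4
  have hGK : G ∈ stabK [1, dodMask] := mem_stabK_dodPoint.2 ⟨hGM, hgd, g0⟩
  obtain ⟨hcM, hcd, hcp⟩ := mem_stabK_dodPoint.1 (mul_mem (mul_mem hGK hx0K) (inv_mem hGK))
  have h0 : x0 (pt 0) = pt 0 := (mem_stabK_dodPoint.1 hx0K).2.2
  have hat : ∀ i j, i < 24 → j < 24 → tblAt m11Invol i = j → x0 (pt i) = pt j := fun i j hi hj e =>
    idx_injective (by rw [hx0, idx_pt hi, idx_pt hj, e])
  refine ⟨G, hGK, unique_five hcM hcd hxM hxd y hy fun i => ?_⟩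
  show (G * x0 * G⁻¹) ((![pt 0, u, x u, w, x w] : Fin 5 → GolayPt) i) =
    x ((![pt 0, u, x u, w, x w] : Fin 5 → GolayPt) i)
  have cj : ∀ {a b : GolayPt}, G a = b → (G * x0 * G⁻¹) b = G (x0 a) := fun {a b} e => by
    rw [← e, Equiv.Perm.mul_apply, Equiv.Perm.mul_apply]
    simp
  have k0 : (G * x0 * G⁻¹) (pt 0) = x (pt 0) := by rw [cj g0, h0, g0, hxp]
  have k1 : (G * x0 * G⁻¹) u = x u := by rw [cj g1, hat 1 6 (by norm_num) (by norm_num) t1, g2]
  have k2 : (G * x0 * G⁻¹) (x u) = x (x u) := by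
    rw [cj g2, hat 6 1 (by norm_num) (by norm_num) t6, g1, hxx]
  have k3 : (G * x0 * G⁻¹) w = x w := by rw [cj g3, hat 3 4 (by norm_num) (by norm_num) t3, g4]
  have k4 : (G * x0 * G⁻¹) (x w) = x (x w) := by
    rw [cj g4, hat 4 3 (by norm_num) (by norm_num) t4, g3, hxx]
  fin_cases i
  exacts [k0, k1, k2, k3, k4]

theorem centralizer_card_le {x0 : PP} (hx0 : IsTbl x0 m11Invol) :
    Nat.card ↥(stabK [1, dodMask] ⊓ Subgroup.centralizer {x0}) ≤ 48 := by
  classical
  obtain ⟨-, hinj, hmem, hmov, t1, t6, t3, t4, hchar⟩ := invol_checks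
  let C := stabK [1, dodMask] ⊓ Subgroup.centralizer {x0}
  have hcomm : ∀ g : C, ∀ a, (g : PP) (x0 a) = x0 ((g : PP) a) := fun g a => by
    have := Subgroup.mem_centralizer_iff.1 g.2.2 x0 (Set.mem_singleton _)
    exact (DFunLike.congr_fun this a).symm
  have hmv : ∀ g : C, ∀ a ∈ unmask 13146, (g : PP) a ∈ unmask 13146 := fun g a ha => by
    obtain ⟨-, hgd, -⟩ := mem_stabK_dodPoint.1 g.2.1
    rw [hchar] at ha ⊢
    refine ⟨hgd ▸ Finset.smul_mem_smul_finset ha.1, fun e => ha.2 ?_⟩
    rw [← hx0] at e ⊢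
    rw [← hcomm] at e
    exact congrArg idx ((g : PP).injective (idx_injective e))
  let S := (unmask 13146).sigma fun a =>
    (unmask 13146).filter fun b => idx b ≠ idx a ∧ idx b ≠ tblAt m11Invol (idx a)
  let f : C → ↥S := fun g => ⟨⟨(g : PP) (pt 1), (g : PP) (pt 3)⟩, by
    refine Finset.mem_sigma.2 ⟨hmv g _ (hmov 1 (by decide)), Finset.mem_filter.2
      ⟨hmv g _ (hmov 3 (by decide)), fun e => ?_, fun e => ?_⟩⟩
    · exact absurd (hinj (show involFive 3 = involFive 1 from
        (g : PP).injective (idx_injective e))) (by decide)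
    · rw [← hx0, ← hcomm] at e
      have := (g : PP).injective (idx_injective e)
      rw [show x0 (pt 1) = pt 6 from idx_injective (by
        rw [hx0, idx_pt (by norm_num), idx_pt (by norm_num), t1])] at this
      exact absurd (hinj (show involFive 3 = involFive 2 from this)) (by decide)⟩
  have hf : Function.Injective f := by
    intro g h e
    have e1 : (g : PP) (pt 1) = (h : PP) (pt 1) :=
      congrArg (fun z : ↥S => (z.1.1 : GolayPt)) e
    have e3 : (g : PP) (pt 3) = (h : PP) (pt 3) :=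
      congrArg (fun z : ↥S => (z.1.2 : GolayPt)) e
    obtain ⟨g1, g2, g3⟩ := mem_stabK_dodPoint.1 g.2.1
    obtain ⟨h1, h2, h3⟩ := mem_stabK_dodPoint.1 h.2.1
    have hat : ∀ i j, i < 24 → j < 24 → tblAt m11Invol i = j → x0 (pt i) = pt j :=
      fun i j hi hj e => idx_injective (by rw [hx0, idx_pt hi, idx_pt hj, e])
    refine Subtype.ext (unique_five g1 g2 h1 h2 ⟨involFive, hinj⟩ hmem fun i => ?_)
    show (g : PP) (involFive i) = (h : PP) (involFive i)
    fin_cases i
    · exact g3.trans h3.symm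
    · exact e1
    · show (g : PP) (pt 6) = (h : PP) (pt 6)
      rw [← hat 1 6 (by norm_num) (by norm_num) t1, hcomm, hcomm, e1]
    · exact e3
    · show (g : PP) (pt 4) = (h : PP) (pt 4)
      rw [← hat 3 4 (by norm_num) (by norm_num) t3, hcomm, hcomm, e3]
  refine (Nat.card_le_card_of_injective f hf).trans (le_of_eq ?_)
  rw [Nat.card_eq_fintype_card, Fintype.card_coe]
  exact count_pairs

theorem std_centralizer {x0 : PP} (hx0 : IsTbl x0 m11Invol) :
    Nonempty (↥(stabK [1, dodMask] ⊓ Subgroup.centralizer {x0}) ≃* GL (Fin 2) (ZMod 3)) := by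
  obtain ⟨hgok, hgm⟩ := involGL_checks
  have hdet : ∀ A : GL (Fin 2) (ZMod 3), A.1 0 0 * A.1 1 1 - A.1 0 1 * A.1 1 0 ≠ 0 := fun A => by
    rw [← Matrix.det_fin_two]
    exact (Matrix.isUnit_iff_isUnit_det _).1 A.isUnit |>.ne_zero
  obtain ⟨ψ, hψ⟩ := exists_tblHom (G := GL (Fin 2) (ZMod 3))
    (fun A => involGLTbl (A.1 0 0) (A.1 0 1) (A.1 1 0) (A.1 1 1)) (fun A => hgok _ _ _ _)
    fun A B => by
      have h := (hgm _ _ _ _ (hdet A)).2.2.2 _ _ _ _ (hdet B)
      simpa [Matrix.mul_apply, Fin.sum_univ_two] using h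
  have hC : ∀ A, ψ A ∈ stabK [1, dodMask] ⊓ Subgroup.centralizer {x0} := fun A =>
    Subgroup.mem_inf.2 ⟨mem_stabK_of_fixesSets (hψ A) (hgm _ _ _ _ (hdet A)).1,
      Subgroup.mem_centralizer_iff.2 fun y hy => by
        obtain rfl := Set.mem_singleton_iff.1 hy
        exact (mul_inv_eq_iff_eq_mul.1 ((hψ A).conj hx0 hx0 (hgm _ _ _ _ (hdet A)).2.1)).symm⟩
  have hinj : Function.Injective (ψ.codRestrict _ hC) := by
    refine (injective_iff_map_eq_one _).2 fun A hA => ?_
    obtain ⟨e1, e2, e3, e4⟩ := (hgm _ _ _ _ (hdet A)).2.2.1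
      ((hψ A).isIdTbl_iff.2 (congrArg Subtype.val hA))
    refine Units.ext (Matrix.ext fun i j => ?_)
    fin_cases i <;> fin_cases j <;> simpa
  have h48 : Nat.card (GL (Fin 2) (ZMod 3)) = 48 := by
    rw [Matrix.card_GL_field, ZMod.card, Fin.prod_univ_two]
    norm_num
  exact ⟨(MulEquiv.ofBijective _ ((Nat.bijective_iff_injective_and_card _).2 ⟨hinj,
    le_antisymm (Nat.card_le_card_of_injective _ hinj)
      (h48 ▸ centralizer_card_le hx0)⟩)).symm⟩

theorem invol_centralizer {d : Finset GolayPt} (hd : d ∈ dodecads) {p : GolayPt} (hp : p ∈ d)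
    (x : ↥(MulAction.stabilizer M24 d ⊓ MulAction.stabilizer M24 p)) (hx : orderOf x = 2) :
    Nonempty (↥(Subgroup.centralizer
      ({x} : Set ↥(MulAction.stabilizer M24 d ⊓ MulAction.stabilizer M24 p))) ≃*
        GL (Fin 2) (ZMod 3)) := by
  obtain ⟨c, rfl, rfl⟩ := card_stabilizer_dodecad_point hd hp
  let E : stabK [1, dodMask] ≃* ↥(MulAction.stabilizer M24 (c • unmask dodMask) ⊓
      MulAction.stabilizer M24 (c • pt 0)) :=
    ((Subgroup.subgroupOfEquivOfLe (stabK_le_M24 _)).symm.trans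
      (MulEquiv.subgroupCongr stabilizer_stdDodecadPoint.symm)).trans
        (stabilizerInfEquiv c (unmask dodMask) (pt 0))
  obtain ⟨y, rfl⟩ := E.surjective x
  rw [MulEquiv.orderOf_eq] at hx
  have hy2 : (y : PP) * y = 1 := by
    have := pow_orderOf_eq_one y
    rw [hx, pow_two] at this
    exact congrArg Subtype.val this
  have hy1 : (y : PP) ≠ 1 := fun h => by
    have : y = 1 := Subtype.ext h
    rw [this, orderOf_one] at hx
    omega
  obtain ⟨x0, hx0K, hx0, -⟩ := exists_stdInvol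
  obtain ⟨g, hg, hgy⟩ := invol_conj y.2 hy2 hy1 hx0K hx0
  obtain ⟨e⟩ := std_centralizer hx0
  let F : stabK [1, dodMask] ≃* ↥(MulAction.stabilizer M24 (c • unmask dodMask) ⊓
      MulAction.stabilizer M24 (c • pt 0)) := (MulAut.conj (⟨g, hg⟩ : stabK [1, dodMask])).trans E
  have hF : F ⟨x0, hx0K⟩ = E y := congrArg E (Subtype.ext hgy)
  rw [← hF]
  have hmap : Subgroup.centralizer {F ⟨x0, hx0K⟩} =
      (Subgroup.centralizer ({⟨x0, hx0K⟩} : Set (stabK [1, dodMask]))).map F.toMonoidHom := by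
    ext z
    obtain ⟨w, rfl⟩ := F.surjective z
    rw [Subgroup.mem_map_equiv, MulEquiv.symm_apply_apply, Subgroup.mem_centralizer_singleton_iff,
      Subgroup.mem_centralizer_singleton_iff, ← map_mul, ← map_mul, F.injective.eq_iff]
  rw [hmap]
  refine ⟨(Subgroup.equivMapOfInjective _ _ F.injective).symm.trans
    (MulEquiv.trans ?_ e)⟩
  exact
    { toFun := fun z => ⟨z.1.1, z.1.2, Subgroup.mem_centralizer_singleton_iff.2
        (congrArg Subtype.val (Subgroup.mem_centralizer_singleton_iff.1 z.2))⟩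
      invFun := fun z => ⟨⟨z.1, z.2.1⟩, Subgroup.mem_centralizer_singleton_iff.2
        (Subtype.ext (Subgroup.mem_centralizer_singleton_iff.1 z.2.2))⟩
      left_inv := fun z => rfl
      right_inv := fun z => rfl
      map_mul' := fun a b => rfl }

end CfsgLib.Golay
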