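import Cfsg.Agent.Lib.Golay.M11Common
import Cfsg.Agent.Lib.Golay.Stab

/-!
The setwise stabiliser in M11 of a pair of points outside the dodecad is S5.
-/

set_option autoImplicit false

namespace CfsgLib.Golay

open Cfsg
open scoped Pointwise

local notation "PP" => Equiv.Perm GolayPt

/-- The table of a permutation of five letters. -/
def pairTbl (σ : Equiv.Perm (Fin 5)) : ℕ :=
  (((m11PermTbls.getD (σ 0).val []).getD (σ 1).val []).getD (σ 2).val []).getD (σ 3).val 0

set_option maxHeartbeats 2000000 in
theorem pairOutChain_ok : chainOK [8388640, 1, 340831] pairOutChain.1 pairOutChain.2 = true := by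
  decide +kernel

theorem pairOutOrder : chainOrder pairOutChain.1 = 120 := by decide +kernel

theorem pairTbl_checks : ∀ σ : Equiv.Perm (Fin 5),
    okTbl (pairTbl σ) = true ∧ fixesSets [8388640, 1, dodMask] (pairTbl σ) = true ∧
    (isIdTbl (pairTbl σ) = true → σ = 1) ∧
    ∀ i : Fin 4, isCompTbl (pairTbl (Equiv.swap i.castSucc i.succ * σ))
      (pairTbl (Equiv.swap i.castSucc i.succ)) (pairTbl σ) = true := by
  decide +kernel

theorem pair_std_iso :
    Nonempty (Equiv.Perm (Fin 5) ≃* ↥(stabK [8388640, 1, dodMask])) := by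
  have hex : ∀ σ, ∃ g : PP, IsTbl g (pairTbl σ) := fun σ => exists_isTbl (pairTbl_checks σ).1
  choose f hf using hex
  have hid : f 1 = 1 := (hf 1).isIdTbl_iff.1 (by decide +kernel)
  have hgen : ∀ (i : Fin 4) σ, f (Equiv.swap i.castSucc i.succ * σ) =
      f (Equiv.swap i.castSucc i.succ) * f σ := fun i σ =>
    (hf _).ext ((hf _).mul (hf σ) ((pairTbl_checks σ).2.2.2 i))
  have hmul : ∀ a b, f (a * b) = f a * f b := by
    intro a
    induction a using Submonoid.induction_of_closure_eq_top_left
      (Equiv.Perm.mclosure_swap_castSucc_succ 4) with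
    | one => intro b; rw [one_mul, hid, one_mul]
    | mul_left s hs a ih =>
      obtain ⟨i, rfl⟩ := hs
      intro b
      rw [mul_assoc, hgen, ih, hgen, mul_assoc]
  let φ := (MonoidHom.mk' f hmul).codRestrict (stabK [8388640, 1, dodMask]) fun σ =>
    mem_stabK_of_fixesSets (hf σ) (pairTbl_checks σ).2.1
  have hinj : Function.Injective φ := (injective_iff_map_eq_one φ).2 fun σ hσ =>
    (pairTbl_checks σ).2.2.1 ((hf σ).isIdTbl_iff.2 (congrArg Subtype.val hσ))
  refine ⟨MulEquiv.ofBijective φ ((Nat.bijective_iff_injective_and_card φ).2 ⟨hinj, ?_⟩)⟩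
  rw [show Nat.card ↥(stabK [8388640, 1, dodMask]) = 120 from
    (card_stabK pairOutChain_ok).trans pairOutOrder, Nat.card_perm, Nat.card_fin]
  rfl

theorem pair_iso {d : Finset GolayPt} (hd : d ∈ dodecads) {p q q' : GolayPt} (hp : p ∈ d)
    (hq : q ∉ d) (hq' : q' ∉ d) (hqq : q ≠ q') :
    Nonempty (↥(MulAction.stabilizer M24 d ⊓ MulAction.stabilizer M24 p ⊓
      MulAction.stabilizer M24 ({q, q'} : Finset GolayPt)) ≃* Equiv.Perm (Fin 5)) := by
  classical
  obtain ⟨c0, hc0d, hc0p⟩ := card_stabilizer_dodecad_point hd hp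
  obtain ⟨r, hr⟩ : ∃ r, r ∈ ((dᶜ : Finset GolayPt).erase q).erase q' := Finset.card_pos.1 (by
    have := Finset.pred_card_le_card_erase (s := (dᶜ : Finset GolayPt)) (a := q)
    have := Finset.pred_card_le_card_erase (s := (dᶜ : Finset GolayPt).erase q) (a := q')
    have h12 : (dᶜ : Finset GolayPt).card = 12 := by
      rw [Finset.card_compl, hd.2, Fintype.card_option, ZMod.card]
    omega)
  simp only [Finset.mem_erase, Finset.mem_compl] at hr
  have hout : ∀ i : ℕ, (unmask dodMask).card = 12 → dodMask.testBit i = false → i < 24 →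
      (c0 : PP) (pt i) ∉ d := by
    intro i _ hi hi24 h
    rw [← hc0d] at h
    have := (apply_mem_smul_iff (c0 : PP) (pt i) (unmask dodMask)).1 h
    rw [mem_unmask, idx_pt hi24, hi] at this
    exact Bool.false_ne_true this
  let x : Fin 3 ↪ GolayPt := (⟨![pt 23, pt 5, pt 7], by decide +kernel⟩ : Fin 3 ↪ GolayPt).trans
    (c0 : PP).toEmbedding
  let y : Fin 3 ↪ GolayPt := ⟨![q, q', r], by
    intro i j h
    obtain ⟨h1, h2, -⟩ := hr
    fin_cases i <;> fin_cases j <;>
      first
        | rfl
        | (simp at h <;> first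
            | exact absurd h hqq
            | exact absurd h.symm hqq
            | exact absurd h h1
            | exact absurd h.symm h1
            | exact absurd h h2
            | exact absurd h.symm h2)⟩
  obtain ⟨a, ha, hai⟩ := three_transitive_outside hd hp x y
    (fun i => by
      show (c0 : PP) ((![pt 23, pt 5, pt 7] : Fin 3 → GolayPt) i) ∉ d
      fin_cases i
      exacts [hout 23 dodMask_card (by decide +kernel) (by norm_num),
        hout 5 dodMask_card (by decide +kernel) (by norm_num),
        hout 7 dodMask_card (by decide +kernel) (by norm_num)])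
    (fun i => by
      show (![q, q', r] : Fin 3 → GolayPt) i ∉ d
      fin_cases i
      exacts [hq, hq', hr.2.2])
  obtain ⟨had, hap⟩ := Subgroup.mem_inf.1 ha
  let c : M24 := a * c0
  have hcd : c • unmask dodMask = d := by rw [mul_smul, hc0d]; exact had
  have hcp : c • pt 0 = p := by rw [mul_smul, hc0p]; exact hap
  have hcs : c • unmask 8388640 = ({q, q'} : Finset GolayPt) := by
    show (c : PP) • unmask 8388640 = _
    rw [show unmask 8388640 = {pt 23, pt 5} by decide +kernel, Finset.smul_finset_insert,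
      Finset.smul_finset_singleton]
    exact congrArg₂ (fun u v => insert u ({v} : Finset GolayPt)) (hai 0) (hai 1)
  obtain ⟨e⟩ := pair_std_iso
  have hstd : MulAction.stabilizer M24 (unmask dodMask) ⊓ MulAction.stabilizer M24 (pt 0) ⊓
      MulAction.stabilizer M24 (unmask 8388640) = (stabK [8388640, 1, dodMask]).subgroupOf M24 := by
    ext g
    rw [Subgroup.mem_subgroupOf]
    change _ ↔ (g : PP) ∈ stabK [1, dodMask] ⊓ MulAction.stabilizer PP (unmask 8388640)
    simp only [Subgroup.mem_inf, mem_stabK_dodPoint]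
    exact ⟨fun h => ⟨⟨g.2, h.1.1, h.1.2⟩, h.2⟩, fun h => ⟨⟨h.1.2.1, h.1.2.2⟩, h.2⟩⟩
  have hmap : MulAction.stabilizer M24 d ⊓ MulAction.stabilizer M24 p ⊓
      MulAction.stabilizer M24 ({q, q'} : Finset GolayPt) =
      ((stabK [8388640, 1, dodMask]).subgroupOf M24).map (MulAut.conj c).toMonoidHom := by
    rw [← hstd, Subgroup.map_inf _ _ _ (MulAut.conj c).injective,
      Subgroup.map_inf _ _ _ (MulAut.conj c).injective, ← hcd, ← hcp, ← hcs]
    simp only [MulAction.stabilizer_smul_eq_stabilizer_map_conj]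
  exact ⟨((MulEquiv.subgroupCongr hmap).trans
    ((Subgroup.equivMapOfInjective _ _ (MulAut.conj c).injective).symm.trans
      (Subgroup.subgroupOfEquivOfLe (stabK_le_M24 _)))).trans e.symm⟩

end CfsgLib.Golay
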