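import Cfsg.Agent.Lib.Golay.M11Common
import Cfsg.Agent.Lib.Golay.Stab
import Cfsg.Agent.Lib.ClassicalLinear.Card
import Cfsg.Agent.Lib.ClassicalLinear.Generation

/-!
The stabiliser in M11 of a point outside the dodecad is PSL(2, 11).
-/

set_option autoImplicit false

namespace CfsgLib.Golay

open Cfsg Matrix
open scoped Pointwise MatrixGroups

local notation "PP" => Equiv.Perm GolayPt

theorem fact_prime_eleven_m11 : Fact (Nat.Prime 11) := ⟨by norm_num⟩

attribute [local instance] fact_prime_eleven_m11

/-- The table of a matrix of determinant one. -/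
def pointTbl (a b c d : ZMod 11) : ℕ :=
  ((m11SLTbls.getD a.val []).getD b.val []).getD (if a = 0 then d.val else c.val) 0

set_option maxHeartbeats 2000000 in
theorem pointOutChain_ok : chainOK [8388608, 1, 340831] pointOutChain.1 pointOutChain.2 = true := by
  decide +kernel

theorem pointOutOrder : chainOrder pointOutChain.1 = 660 := by decide +kernel

set_option maxHeartbeats 4000000 in
set_option maxRecDepth 20000 in
theorem pointTbl_checks : ∀ a b c d : ZMod 11, a * d - b * c = 1 →
    (okTbl (pointTbl a b c d) = true ∧ (isIdTbl (pointTbl a b c d) = true →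
      b = 0 ∧ c = 0 ∧ a = d)) ∧
    isCompTbl (pointTbl (a + c) (b + d) c d) (pointTbl 1 1 0 1) (pointTbl a b c d) = true ∧
    isCompTbl (pointTbl a b (a + c) (b + d)) (pointTbl 1 0 1 1) (pointTbl a b c d) = true := by
  decide +kernel

theorem pointTbl_gens : fixesSets [8388608, 1, dodMask] (pointTbl 1 1 0 1) = true ∧
    fixesSets [8388608, 1, dodMask] (pointTbl 1 0 1 1) = true ∧
    isIdTbl (pointTbl 1 0 0 1) = true := by
  decide +kernel

theorem natCard_PSL2_eleven :
    Nat.card (ProjectiveSpecialLinearGroup (Fin 2) (ZMod 11)) = 660 := by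
  have h := ClassicalLinear.card_PSL_two_of_odd (F := ZMod 11) (ZMod.card 11) (by decide)
  omega

theorem point_std_iso :
    Nonempty (ProjectiveSpecialLinearGroup (Fin 2) (ZMod 11) ≃*
      ↥(stabK [8388608, 1, dodMask])) := by
  have hdet : ∀ A : SL(2, ZMod 11), A.1 0 0 * A.1 1 1 - A.1 0 1 * A.1 1 0 = 1 := fun A => by
    rw [← Matrix.det_fin_two]; exact A.2
  have hex : ∀ A : SL(2, ZMod 11), ∃ g : PP,
      IsTbl g (pointTbl (A.1 0 0) (A.1 0 1) (A.1 1 0) (A.1 1 1)) :=
    fun A => exists_isTbl (pointTbl_checks _ _ _ _ (hdet A)).1.1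
  choose f hf using hex
  obtain ⟨hu, hl, hid⟩ := pointTbl_gens
  have hf1 : f 1 = 1 := (hf 1).isIdTbl_iff.1 (by simpa using hid)
  let U : SL(2, ZMod 11) := SpecialLinearGroup.transvection (show (0 : Fin 2) ≠ 1 by decide) 1
  let V : SL(2, ZMod 11) := SpecialLinearGroup.transvection (show (1 : Fin 2) ≠ 0 by decide) 1
  have hU : IsTbl (f U) (pointTbl 1 1 0 1) := by
    have := hf U
    simpa [U, SpecialLinearGroup.transvection, Matrix.transvection, Matrix.single] using this
  have hV : IsTbl (f V) (pointTbl 1 0 1 1) := by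
    have := hf V
    simpa [V, SpecialLinearGroup.transvection, Matrix.transvection, Matrix.single] using this
  let K := stabK [8388608, 1, dodMask]
  let P : SL(2, ZMod 11) → Prop := fun A => f A ∈ K ∧ ∀ B, f (A * B) = f A * f B
  have hP1 : P 1 := ⟨hf1 ▸ one_mem _, fun B => by rw [one_mul, hf1, one_mul]⟩
  have hPm : ∀ A B, P A → P B → P (A * B) := fun A B hA hB =>
    ⟨by rw [hA.2]; exact mul_mem hA.1 hB.1,
      fun C => by rw [mul_assoc, hA.2, hB.2, hA.2, mul_assoc]⟩
  have eU : (U : Matrix (Fin 2) (Fin 2) (ZMod 11)) = !![1, 1; 0, 1] := by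
    ext i j
    fin_cases i <;> fin_cases j <;>
      simp [U, SpecialLinearGroup.transvection, Matrix.transvection, Matrix.single]
  have hPU : P U := ⟨mem_stabK_of_fixesSets hU hu, fun B => by
    refine (hf (U * B)).ext (hU.mul (hf B) ?_)
    have h := (pointTbl_checks _ _ _ _ (hdet B)).2.1
    have e : ∀ i j, (U * B).1 i j = ((!![1, 1; 0, 1] : Matrix (Fin 2) (Fin 2) (ZMod 11)) * B.1) i j := fun i j => by rw [← eU]; rfl
    rw [e, e, e, e]
    simpa [Matrix.mul_apply, Fin.sum_univ_two] using h⟩
  have eV : (V : Matrix (Fin 2) (Fin 2) (ZMod 11)) = !![1, 0; 1, 1] := by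
    ext i j
    fin_cases i <;> fin_cases j <;>
      simp [V, SpecialLinearGroup.transvection, Matrix.transvection, Matrix.single]
  have hPV : P V := ⟨mem_stabK_of_fixesSets hV hl, fun B => by
    refine (hf (V * B)).ext (hV.mul (hf B) ?_)
    have h := (pointTbl_checks _ _ _ _ (hdet B)).2.2
    have e : ∀ i j, (V * B).1 i j = ((!![1, 0; 1, 1] : Matrix (Fin 2) (Fin 2) (ZMod 11)) * B.1) i j := fun i j => by rw [← eV]; rfl
    rw [e, e, e, e]
    simpa [Matrix.mul_apply, Fin.sum_univ_two] using h⟩
  have hpow : ∀ A, P A → ∀ n : ℕ, P (A ^ n) := fun A hA n => by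
    induction n with
    | zero => rw [pow_zero]; exact hP1
    | succ n ih => rw [pow_succ]; exact hPm _ _ ih hA
  have hPall : ∀ A, P A := by
    intro A
    refine ClassicalLinear.transvection_induction hP1 (fun i j hij c => ?_) hPm A
    have key : ∀ n : ℕ, (SpecialLinearGroup.transvection hij (1 : ZMod 11)) ^ n =
        SpecialLinearGroup.transvection hij (n : ZMod 11) := fun n => by
      induction n with
      | zero =>
        rw [pow_zero]
        refine Subtype.ext ?_
        show (1 : Matrix (Fin 2) (Fin 2) (ZMod 11)) = Matrix.transvection i j ((0 : ℕ) : ZMod 11)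
        simp
      | succ n ih =>
        rw [pow_succ, ih]
        refine Subtype.ext ?_
        show Matrix.transvection i j (n : ZMod 11) * Matrix.transvection i j 1 = _
        rw [Matrix.transvection_mul_transvection_same i j hij]
        simp [SpecialLinearGroup.transvection]
    rw [← ZMod.natCast_zmod_val c, ← key]
    fin_cases i <;> fin_cases j
    · exact absurd rfl hij
    · exact hpow U hPU _
    · exact hpow V hPV _
    · exact absurd rfl hij
  let φ : SL(2, ZMod 11) →* ↥K :=
    (MonoidHom.mk' f fun A B => (hPall A).2 B).codRestrict K fun A => (hPall A).1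
  have hker : φ.ker = Subgroup.center SL(2, ZMod 11) := by
    ext A
    rw [MonoidHom.mem_ker, Matrix.SpecialLinearGroup.mem_center_iff]
    constructor
    · intro hA
      obtain ⟨h01, h10, h00⟩ := (pointTbl_checks _ _ _ _ (hdet A)).1.2
        ((hf A).isIdTbl_iff.2 (congrArg Subtype.val hA))
      refine ⟨A.1 0 0, ?_, ?_⟩
      · have := hdet A
        rw [h01, zero_mul, sub_zero, ← h00] at this
        simpa [pow_two] using this
      · ext i j
        fin_cases i <;> fin_cases j <;> simp [Matrix.scalar_apply, h01, h10, h00]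
    · rintro ⟨r, hr, hA⟩
      refine Subtype.ext ((hf A).isIdTbl_iff.1 ?_)
      have e : ∀ i j, A.1 i j = if i = j then r else 0 := fun i j => by
        rw [← hA, Matrix.scalar_apply, Matrix.diagonal_apply]
      rw [e, e, e, e]
      simp only [Fintype.card_fin] at hr
      have key : ∀ r : ZMod 11, r ^ 2 = 1 → isIdTbl (pointTbl r 0 0 r) = true := by decide +kernel
      simpa using key r hr
  let ψ := QuotientGroup.lift (Subgroup.center SL(2, ZMod 11)) φ hker.ge
  have hinj : Function.Injective ψ := by
    refine (injective_iff_map_eq_one ψ).2 fun x hx => ?_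
    induction x using QuotientGroup.induction_on with
    | H A => exact (QuotientGroup.eq_one_iff A).2 (hker ▸ hx)
  exact ⟨MulEquiv.ofBijective (ψ : ProjectiveSpecialLinearGroup (Fin 2) (ZMod 11) →* ↥K)
    ((Nat.bijective_iff_injective_and_card _).2 ⟨hinj, by
      rw [natCard_PSL2_eleven, show Nat.card ↥K = 660 from
        (card_stabK pointOutChain_ok).trans pointOutOrder]⟩)⟩

theorem point_iso {d : Finset GolayPt} (hd : d ∈ dodecads) {p q : GolayPt} (hp : p ∈ d)
    (hq : q ∉ d) :
    Nonempty (↥(MulAction.stabilizer M24 d ⊓ MulAction.stabilizer M24 p ⊓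
      MulAction.stabilizer M24 q) ≃* ProjectiveSpecialLinearGroup (Fin 2) (ZMod 11)) := by
  classical
  obtain ⟨c0, hc0d, hc0p⟩ := card_stabilizer_dodecad_point hd hp
  obtain ⟨r, hr, r', hr', hrr⟩ : ∃ r ∈ (dᶜ : Finset GolayPt).erase q,
      ∃ r' ∈ (dᶜ : Finset GolayPt).erase q, r ≠ r' := by
    refine Finset.one_lt_card.1 ?_
    have := Finset.pred_card_le_card_erase (s := (dᶜ : Finset GolayPt)) (a := q)
    have h12 : (dᶜ : Finset GolayPt).card = 12 := by
      rw [Finset.card_compl, hd.2, Fintype.card_option, ZMod.card]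
    omega
  simp only [Finset.mem_erase, Finset.mem_compl] at hr hr'
  obtain ⟨h1, hrd⟩ := hr
  obtain ⟨h2, hrd'⟩ := hr'
  have hout : ∀ i : ℕ, dodMask.testBit i = false → i < 24 → (c0 : PP) (pt i) ∉ d := by
    intro i hi hi24 h
    rw [← hc0d] at h
    have := (apply_mem_smul_iff (c0 : PP) (pt i) (unmask dodMask)).1 h
    rw [mem_unmask, idx_pt hi24, hi] at this
    exact Bool.false_ne_true this
  let x : Fin 3 ↪ GolayPt := (⟨![pt 23, pt 5, pt 7], by decide +kernel⟩ : Fin 3 ↪ GolayPt).trans
    (c0 : PP).toEmbedding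
  let y : Fin 3 ↪ GolayPt := ⟨![q, r, r'], by
    intro i j h
    fin_cases i <;> fin_cases j <;>
      first
        | rfl
        | (simp at h <;> first
            | exact absurd h hrr
            | exact absurd h.symm hrr
            | exact absurd h h1
            | exact absurd h.symm h1
            | exact absurd h h2
            | exact absurd h.symm h2)⟩
  obtain ⟨a, ha, hai⟩ := three_transitive_outside hd hp x y
    (fun i => by
      show (c0 : PP) ((![pt 23, pt 5, pt 7] : Fin 3 → GolayPt) i) ∉ d
      fin_cases i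
      exacts [hout 23 (by decide +kernel) (by norm_num), hout 5 (by decide +kernel) (by norm_num),
        hout 7 (by decide +kernel) (by norm_num)])
    (fun i => by
      show (![q, r, r'] : Fin 3 → GolayPt) i ∉ d
      fin_cases i
      exacts [hq, hrd, hrd'])
  obtain ⟨had, hap⟩ := Subgroup.mem_inf.1 ha
  let c : M24 := a * c0
  have hcd : c • unmask dodMask = d := by rw [mul_smul, hc0d]; exact had
  have hcp : c • pt 0 = p := by rw [mul_smul, hc0p]; exact hap
  have hcq : c • pt 23 = q := hai 0
  obtain ⟨e⟩ := point_std_iso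
  have hstd : MulAction.stabilizer M24 (unmask dodMask) ⊓ MulAction.stabilizer M24 (pt 0) ⊓
      MulAction.stabilizer M24 (pt 23) = (stabK [8388608, 1, dodMask]).subgroupOf M24 := by
    ext g
    rw [Subgroup.mem_subgroupOf, show (8388608 : ℕ) = 2 ^ 23 by norm_num,
      fix_singleton_mem (by norm_num), mem_stabK_dodPoint]
    simp only [Subgroup.mem_inf, MulAction.mem_stabilizer_iff]
    exact ⟨fun h => ⟨⟨g.2, h.1.1, h.1.2⟩, h.2⟩, fun h => ⟨⟨h.1.2.1, h.1.2.2⟩, h.2⟩⟩
  have hmap : MulAction.stabilizer M24 d ⊓ MulAction.stabilizer M24 p ⊓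
      MulAction.stabilizer M24 q =
      ((stabK [8388608, 1, dodMask]).subgroupOf M24).map (MulAut.conj c).toMonoidHom := by
    rw [← hstd, Subgroup.map_inf _ _ _ (MulAut.conj c).injective,
      Subgroup.map_inf _ _ _ (MulAut.conj c).injective, ← hcd, ← hcp, ← hcq]
    simp only [MulAction.stabilizer_smul_eq_stabilizer_map_conj]
  exact ⟨((MulEquiv.subgroupCongr hmap).trans
    ((Subgroup.equivMapOfInjective _ _ (MulAut.conj c).injective).symm.trans
      (Subgroup.subgroupOfEquivOfLe (stabK_le_M24 _)))).trans e.symm⟩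

end CfsgLib.Golay
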