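import Cfsg.Agent.Lib.Golay.M11Common

/-!
The pointwise stabiliser of three points of a dodecad: order 72, transitive on the complement.
-/

set_option autoImplicit false

namespace CfsgLib.Golay

open Cfsg
open scoped Pointwise

local notation "PP" => Equiv.Perm GolayPt

set_option maxHeartbeats 2000000 in
theorem threeInChain_ok0 : chainOK [4, 2, 1, 340831] threeInChain.1 threeInChain.2 = true := by
  decide +kernel

set_option maxHeartbeats 2000000 in
theorem threeInChain_ok1 : chainOK [32, 4, 2, 1, 340831] threeInChain1.1 threeInChain1.2 = true := by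
  decide +kernel

theorem threeInOrders : chainOrder threeInChain.1 = 72 ∧ chainOrder threeInChain1.1 = 6 := by
  decide +kernel

theorem stabilizer_three_std :
    MulAction.stabilizer M24 (unmask dodMask) ⊓ MulAction.stabilizer M24 (pt 0) ⊓
      MulAction.stabilizer M24 (pt 1) ⊓ MulAction.stabilizer M24 (pt 2) =
        (stabK [4, 2, 1, dodMask]).subgroupOf M24 := by
  ext g
  rw [Subgroup.mem_subgroupOf, show (4 : ℕ) = 2 ^ 2 by norm_num, fix_singleton_mem (by norm_num),
    show (2 : ℕ) = 2 ^ 1 by norm_num, fix_singleton_mem (by norm_num), mem_stabK_dodPoint]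
  simp only [Subgroup.mem_inf, MulAction.mem_stabilizer_iff]
  exact ⟨fun h => ⟨⟨⟨g.2, h.1.1.1, h.1.1.2⟩, h.1.2⟩, h.2⟩,
    fun h => ⟨⟨⟨h.1.1.2.1, h.1.1.2.2⟩, h.1.2⟩, h.2⟩⟩

theorem three_point_stabilizer {d : Finset GolayPt} (hd : d ∈ dodecads) {p q r : GolayPt}
    (hp : p ∈ d) (hq : q ∈ d) (hr : r ∈ d) (hpq : p ≠ q) (hpr : p ≠ r) (hqr : q ≠ r) :
    Nat.card ↥(MulAction.stabilizer M24 d ⊓ MulAction.stabilizer M24 p ⊓
      MulAction.stabilizer M24 q ⊓ MulAction.stabilizer M24 r) = 72 ∧
    ∀ x ∉ d, ∀ y ∉ d, ∃ g ∈ (MulAction.stabilizer M24 d ⊓ MulAction.stabilizer M24 p ⊓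
      MulAction.stabilizer M24 q ⊓ MulAction.stabilizer M24 r), ((g : ↥M24) : PP) x = y := by
  obtain ⟨c', hc', hcd, hcp, hcq, hcr⟩ := exists_embedding_five hd hp hq hr hpq hpr hqr
  obtain ⟨c, rfl⟩ : ∃ c : M24, (c : PP) = c' := ⟨⟨c', hc'⟩, rfl⟩
  change c • unmask dodMask = d at hcd
  change c • pt 0 = p at hcp
  change c • pt 1 = q at hcq
  change c • pt 2 = r at hcr
  subst hcd hcp hcq hcr
  have hmap : MulAction.stabilizer M24 (c • unmask dodMask) ⊓ MulAction.stabilizer M24 (c • pt 0) ⊓
      MulAction.stabilizer M24 (c • pt 1) ⊓ MulAction.stabilizer M24 (c • pt 2) =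
      ((stabK [4, 2, 1, dodMask]).subgroupOf M24).map (MulAut.conj c).toMonoidHom := by
    rw [← stabilizer_three_std, Subgroup.map_inf _ _ _ (MulAut.conj c).injective,
      Subgroup.map_inf _ _ _ (MulAut.conj c).injective,
      Subgroup.map_inf _ _ _ (MulAut.conj c).injective]
    simp only [MulAction.stabilizer_smul_eq_stabilizer_map_conj]
  rw [hmap]
  have hord := (card_stabK threeInChain_ok0).trans threeInOrders.1
  refine ⟨?_, fun x hx y hy => ?_⟩
  · rw [Subgroup.card_map_of_injective (MulAut.conj c).injective,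
      card_subgroupOf_M24 (stabK_le_M24 _)]
    exact hord
  · have hY : {s : Finset GolayPt | s.card = 1 ∧ Disjoint s (unmask dodMask)}.ncard = 12 := by
      have : {s : Finset GolayPt | s.card = 1 ∧ Disjoint s (unmask dodMask)} =
          (fun a => ({a} : Finset GolayPt)) '' ↑((unmask dodMask)ᶜ) := by
        ext s
        simp only [Set.mem_ofPred_eq, Finset.card_eq_one, Set.mem_image, Finset.mem_coe,
          Finset.mem_compl]
        constructor
        · rintro ⟨⟨a, rfl⟩, hd⟩; exact ⟨a, Finset.disjoint_singleton_left.1 hd, rfl⟩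
        · rintro ⟨a, ha, rfl⟩; exact ⟨⟨a, rfl⟩, Finset.disjoint_singleton_left.2 ha⟩
      rw [this, Set.ncard_image_of_injective _ Finset.singleton_injective, Set.ncard_coe_finset,
        Finset.card_compl, dodMask_card, Fintype.card_option, ZMod.card]
    have hmem : ∀ z, z ∉ c • unmask dodMask →
        ({(c : PP)⁻¹ z} : Finset GolayPt) ∈
          {s : Finset GolayPt | s.card = 1 ∧ Disjoint s (unmask dodMask)} := fun z hz =>
      ⟨Finset.card_singleton _, Finset.disjoint_singleton_left.2 fun h => hz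
        (Finset.mem_smul_finset.2 ⟨_, h, Equiv.apply_symm_apply (c : PP) z⟩)⟩
    obtain ⟨g, hg, hge⟩ := suborbit_std (base := [4, 2, 1, dodMask]) (m := 32) (n := 12) (k := 6)
      (Y := {s : Finset GolayPt | s.card = 1 ∧ Disjoint s (unmask dodMask)})
      ⟨by decide +kernel, by decide +kernel⟩
      (fun g hg y hy => ⟨(Finset.card_smul_finset g y).trans hy.1, by
        rw [← stabK_dodMask_smul (by simp) g hg, Finset.disjoint_iff_inter_eq_empty,
          ← Finset.smul_finset_inter, Finset.disjoint_iff_inter_eq_empty.1 hy.2,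
          Finset.smul_finset_empty]⟩) hY hord
      ((card_stabK threeInChain_ok1).trans threeInOrders.2) _ (hmem x hx) _ (hmem y hy)
    rw [Finset.smul_finset_singleton, Finset.singleton_inj, Equiv.Perm.smul_def] at hge
    refine ⟨c * ⟨g, stabK_le_M24 _ hg⟩ * c⁻¹, ⟨⟨g, stabK_le_M24 _ hg⟩, hg, rfl⟩, ?_⟩
    show (c : PP) (g ((c : PP)⁻¹ x)) = y
    rw [hge]
    exact Equiv.apply_symm_apply (c : PP) y

end CfsgLib.Golay
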