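import Cfsg.Agent.Lib.Golay.Words
import Cfsg.Agent.Lib.ExtraspecialLarge.GolayAbstract

/-!
Coset leaders of the length-24 code and the punctured length-23 code (restriction to the residues).
-/

set_option autoImplicit false

namespace CfsgLib.Golay

open Cfsg
open scoped symmDiff
open CfsgLib.ExtraspecialLarge (vec supp vec_supp supp_vec)

theorem isGolayLike_golayCode : CfsgLib.ExtraspecialLarge.IsGolayLike golayCode where
  card_pts := by simp
  finrank_eq := finrank_golayCode
  orth := fun _ hv _ hw => dot_eq_zero hv hw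
  min_wt := fun w hw h0 => by
    rcases hammingNorm_mem_weights hw with h | h | h | h | h
    · exact absurd (hammingNorm_eq_zero.1 h) h0
    all_goals omega

theorem sub_eq_vec (w : GolayPt → ZMod 2) (t : Finset GolayPt) :
    w - vec t = vec (supp w ∆ t) := by
  rw [CfsgLib.ExtraspecialLarge.vec_symmDiff, vec_supp, ZModModule.sub_eq_add]

theorem leaders_eq_image (w : GolayPt → ZMod 2) :
    {v : GolayPt → ZMod 2 | hammingNorm v ≤ 4 ∧ w - v ∈ golayCode} =
      vec '' {t | vec (supp w ∆ t) ∈ golayCode ∧ t.card ≤ 4} := by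
  ext v
  simp only [Set.mem_ofPred_eq, Set.mem_image]
  constructor
  · rintro ⟨h4, hv⟩
    refine ⟨supp v, ⟨?_, ?_⟩, vec_supp v⟩
    · rwa [← sub_eq_vec, vec_supp]
    · rwa [← CfsgLib.ExtraspecialLarge.hammingNorm_eq_card_supp]
  · rintro ⟨t, ⟨ht, h4⟩, rfl⟩
    refine ⟨?_, by rwa [sub_eq_vec]⟩
    rwa [CfsgLib.ExtraspecialLarge.hammingNorm_eq_card_supp, supp_vec]

theorem vec_injective : Function.Injective (vec : Finset GolayPt → GolayPt → ZMod 2) := fun s t h => by
  rw [← supp_vec s, h, supp_vec]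

/-- Restriction of a word to the residues. -/
def restrict23 (w : GolayPt → ZMod 2) : ZMod 23 → ZMod 2 := fun x => w (some x)

theorem hammingNorm_restrict23 (w : GolayPt → ZMod 2) :
    hammingNorm (restrict23 w) = ((support₂ w).erase none).card := by
  rw [hammingNorm]
  refine Finset.card_bij (fun x _ => some x) (fun x hx => ?_) (fun x _ y _ h => Option.some_injective _ h)
    (fun p hp => ?_)
  · simp only [Finset.mem_filter, Finset.mem_univ, true_and] at hx
    exact Finset.mem_erase.2 ⟨Option.some_ne_none x, by simpa [support₂, restrict23] using hx⟩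
  · obtain ⟨hn, hp⟩ := Finset.mem_erase.1 hp
    obtain ⟨x, rfl⟩ := Option.ne_none_iff_exists'.1 hn
    exact ⟨x, Finset.mem_filter.2 ⟨Finset.mem_univ _, (Finset.mem_filter.1 hp).2⟩, rfl⟩

theorem hammingNorm_le_restrict23 (w : GolayPt → ZMod 2) :
    hammingNorm w ≤ hammingNorm (restrict23 w) + 1 := by
  rw [hammingNorm_restrict23, hammingNorm_eq_card_support₂]
  exact Nat.le_add_one_iff.2 (by
    by_cases h : (none : GolayPt) ∈ support₂ w
    · right; rw [Finset.card_erase_add_one h]
    · left; rw [Finset.erase_eq_of_notMem h])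

theorem restrict23_injOn : Set.InjOn restrict23 (golayCode : Set (GolayPt → ZMod 2)) := by
  intro v hv w hw h
  have hd : v - w ∈ golayCode := sub_mem hv hw
  have h0 : restrict23 (v - w) = 0 := by
    funext x
    show v (some x) - w (some x) = 0
    rw [show v (some x) = w (some x) from congrFun h x, sub_self]
  have h1 := hammingNorm_le_restrict23 (v - w)
  rw [h0, hammingNorm_zero] at h1
  by_contra hne
  have := isGolayLike_golayCode.min_wt _ hd (sub_ne_zero.2 hne)
  omega

theorem punctured_eq_image :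
    {u : ZMod 23 → ZMod 2 | ∃ w ∈ golayCode, ∀ x : ZMod 23, u x = w (some x)} =
      restrict23 '' (golayCode : Set (GolayPt → ZMod 2)) := by
  ext u
  constructor
  · rintro ⟨w, hw, h⟩
    exact ⟨w, hw, funext fun x => (h x).symm⟩
  · rintro ⟨w, hw, rfl⟩
    exact ⟨w, hw, fun x => rfl⟩

theorem ncard_punctured_weight (k : ℕ) :
    {u : ZMod 23 → ZMod 2 | u ∈ {u : ZMod 23 → ZMod 2 | ∃ w ∈ golayCode,
      ∀ x : ZMod 23, u x = w (some x)} ∧ hammingNorm u = k}.ncard =
      countSpan basisMasks fun n => popc (n &&& 8388607) == k := by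
  rw [punctured_eq_image]
  have h1 : {u : ZMod 23 → ZMod 2 | u ∈ restrict23 '' (golayCode : Set (GolayPt → ZMod 2)) ∧
      hammingNorm u = k} = restrict23 '' {w | w ∈ golayCode ∧ hammingNorm (restrict23 w) = k} := by
    ext u
    constructor
    · rintro ⟨⟨w, hw, rfl⟩, hk⟩; exact ⟨w, ⟨hw, hk⟩, rfl⟩
    · rintro ⟨w, ⟨hw, hk⟩, rfl⟩; exact ⟨⟨w, hw, rfl⟩, hk⟩
  have h2 : support₂ '' {w | w ∈ golayCode ∧ hammingNorm (restrict23 w) = k} =
      {s | s ∈ supports (golayCode : Set (GolayPt → ZMod 2)) ∧ (s.erase none).card = k} := by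
    ext s
    constructor
    · rintro ⟨w, ⟨hw, hk⟩, rfl⟩; exact ⟨⟨w, hw, rfl⟩, hammingNorm_restrict23 w ▸ hk⟩
    · rintro ⟨⟨w, hw, rfl⟩, hk⟩
      exact ⟨w, ⟨hw, (hammingNorm_restrict23 w).trans hk⟩, rfl⟩
  rw [h1, (restrict23_injOn.mono fun w hw => hw.1).ncard_image,
    ← Set.ncard_image_of_injective _ support₂_injective, h2]
  refine ncard_supports_sep _ _ fun n hn => ?_
  rw [beq_iff_eq, ← card_unmask, unmask_and]
  have : unmask n ∩ unmask 8388607 = (unmask n).erase none := by
    have e : unmask 8388607 = Finset.univ.erase (none : GolayPt) := by decide +kernel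
    rw [e, Finset.inter_erase, Finset.inter_univ]
  rw [this]

end CfsgLib.Golay
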