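import Cfsg.Agent.Lib.Golay.Quartets
import Cfsg.Agent.Lib.Golay.TblHom
import Cfsg.Agent.Lib.Golay.QuartetData
import Cfsg.Agent.Lib.ClassicalLinear.Card

/-!
The stabiliser of a quartet in the stabiliser of its dodecad: order 432, structure 3² : GL(2, 3),
and its five orbits on quartets.
-/

set_option autoImplicit false

namespace CfsgLib.Golay

open Cfsg
open scoped Pointwise

local notation "PP" => Equiv.Perm GolayPt

/-- The elements of `M24` fixing the standard dodecad and quartet. -/
def quartetK : Subgroup PP := stabK [dodMask] ⊓ MulAction.stabilizer PP stdQuartet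

theorem mem_quartetK {g : PP} :
    g ∈ quartetK ↔ g ∈ M24 ∧ g • unmask dodMask = unmask dodMask ∧ g • stdQuartet = stdQuartet := by
  rw [quartetK, Subgroup.mem_inf, mem_stabK, MulAction.mem_stabilizer_iff]
  simp [and_assoc]

theorem stabilizer_quartet_std :
    MulAction.stabilizer M24 (unmask dodMask) ⊓ MulAction.stabilizer M24 stdQuartet =
      quartetK.subgroupOf M24 := by
  ext g
  rw [Subgroup.mem_subgroupOf, mem_quartetK, Subgroup.mem_inf, MulAction.mem_stabilizer_iff,
    MulAction.mem_stabilizer_iff]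
  exact ⟨fun h => ⟨g.2, h.1, h.2⟩, fun h => h.2⟩

theorem quartetK_le : quartetK ≤ M24 := fun _ h => (mem_quartetK.1 h).1

theorem card_quartetK : Nat.card quartetK = 432 := by
  let A := stabK [dodMask]
  have horb : MulAction.orbit A stdQuartet = quartets (unmask dodMask) := by
    ext Q
    constructor
    · rintro ⟨g, rfl⟩
      have h := smul_mem_quartets (stabK_le_M24 _ g.2) stdQuartet_mem
      rwa [stabK_dodMask_smul (by simp) _ g.2] at h
    · intro hQ
      obtain ⟨g, hg, hgd, hgQ⟩ := quartets_transitive dodMask_mem stdQuartet_mem hQ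
      exact ⟨⟨g, mem_stabK.2 ⟨hg, by simpa using hgd⟩⟩, hgQ⟩
  have h := Subgroup.card_mul_index (MulAction.stabilizer A stdQuartet)
  rw [MulAction.index_stabilizer, horb, ncard_quartets dodMask_mem, card_stabK_dodecad] at h
  have e : (MulAction.stabilizer A stdQuartet).map A.subtype = quartetK := by
    ext g
    constructor
    · rintro ⟨a, ha, rfl⟩; exact ⟨a.2, ha⟩
    · rintro ⟨h1, h2⟩; exact ⟨⟨g, h1⟩, h2, rfl⟩
  rw [← e, Subgroup.card_map_of_injective (f := A.subtype) Subtype.val_injective]
  omega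

/-- The table maps the standard dodecad and each standard triple to a standard one. -/
def fixesQuartet (t : ℕ) : Bool :=
  inM24 t && imgMask t dodMask == dodMask && quartetTriples.all fun a =>
    quartetTriples.contains (imgMask t a)

theorem mem_quartetK_of_isTbl {g : PP} {t : ℕ} (h : IsTbl g t) (ht : fixesQuartet t = true) :
    g ∈ quartetK := by
  simp only [fixesQuartet, Bool.and_eq_true, beq_iff_eq, List.all_eq_true, List.contains_eq_mem,
    decide_eq_true_eq] at ht
  obtain ⟨⟨hM, hd⟩, hT⟩ := ht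
  refine mem_quartetK.2 ⟨?_, by rw [smul_unmask h, hd], ?_⟩
  · exact stabK_le_M24 [] (mem_stabK_of_isTbl h hM (by simp))
  · refine Finset.eq_of_subset_of_card_le (fun x hx => ?_) (Finset.card_smul_finset _ _).ge
    obtain ⟨y, hy, rfl⟩ := Finset.mem_smul_finset.1 hx
    simp only [stdQuartet, List.mem_toFinset, List.mem_map] at hy ⊢
    obtain ⟨a, ha, rfl⟩ := hy
    exact ⟨_, hT a ha, (smul_unmask h a).symm⟩

set_option maxRecDepth 20000 in
theorem quartetStab_checks : quartetStabTbls.all okTbl = true ∧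
    (quartetStabTbls.map tblKey).Nodup ∧ quartetStabTbls.all fixesQuartet = true ∧
    quartetStabTbls.length = 432 := by
  decide +kernel

theorem exists_quartetTbl : ∀ g ∈ quartetK, ∃ t ∈ quartetStabTbls, IsTbl g t := by
  obtain ⟨h1, h2, h3, h4⟩ := quartetStab_checks
  exact exists_tbl_of_card h1 h2
    (fun t ht g hg => mem_quartetK_of_isTbl hg (List.all_eq_true.1 h3 t ht))
    (card_quartetK.trans h4.symm)

/-! ### The normal subgroup and the complement -/

/-- The table of an element of the group of order nine. -/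
def nineTbl (v : ZMod 3 × ZMod 3) : ℕ := quartetNineTbls.getD (3 * v.1.val + v.2.val) 0

theorem nine_checks :
    (∀ v, fixesQuartet (nineTbl v) = true ∧ okTbl (nineTbl v) = true ∧
      (isIdTbl (nineTbl v) = true → v = 0)) ∧
    (∀ v w, isCompTbl (nineTbl (v + w)) (nineTbl v) (nineTbl w) = true) ∧
    (quartetStabTbls.all fun h => quartetNineTbls.all fun n =>
      quartetNineTbls.any fun m => conjTbl h n m) = true := by
  decide +kernel

/-- The table of a matrix of the complement. -/
def glTbl (a b c d : ZMod 3) : ℕ :=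
  quartetGLTbls.getD (27 * a.val + 9 * b.val + 3 * c.val + d.val) 0

theorem gl_checks : (∀ a b c d : ZMod 3, okTbl (glTbl a b c d) = true) ∧
    (∀ a b c d : ZMod 3, a * d - b * c ≠ 0 → fixesQuartet (glTbl a b c d) = true ∧
      ((quartetNineTbls.any fun m => (List.range 24).all fun i => tblAt (glTbl a b c d) i == tblAt m i)
        = true → a = 1 ∧ b = 0 ∧ c = 0 ∧ d = 1) ∧
      ∀ e f g h : ZMod 3, e * h - f * g ≠ 0 →
        isCompTbl (glTbl (a * e + b * g) (a * f + b * h) (c * e + d * g) (c * f + d * h))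
          (glTbl a b c d) (glTbl e f g h) = true) := by
  decide +kernel

theorem natCard_GL23 : Nat.card (GL (Fin 2) (ZMod 3)) = 48 := by
  rw [Matrix.card_GL_field, ZMod.card, Fin.prod_univ_two]
  norm_num

theorem quartetK_structure : ∃ (N : Subgroup quartetK) (_ : N.Normal), Nat.card N = 9 ∧
    Nonempty (↥quartetK ⧸ N ≃* GL (Fin 2) (ZMod 3)) := by
  obtain ⟨h9, h9m, h9c⟩ := nine_checks
  obtain ⟨φ, hφ⟩ := exists_tblHom (G := Multiplicative (ZMod 3 × ZMod 3))
    (fun v => nineTbl v.toAdd) (fun v => (h9 _).2.1) fun a b => by rw [toAdd_mul]; exact h9m _ _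
  have hφK : ∀ v, φ v ∈ quartetK := fun v => mem_quartetK_of_isTbl (hφ v) (h9 _).1
  let φK := φ.codRestrict quartetK hφK
  have hφinj : Function.Injective φK := by
    refine (injective_iff_map_eq_one φK).2 fun v hv => ?_
    have : φ v = 1 := congrArg Subtype.val hv
    exact Multiplicative.toAdd.injective (((h9 _).2.2 ((hφ v).isIdTbl_iff.2 this)).trans rfl)
  have hidx : ∀ n ∈ quartetNineTbls, ∃ v : ZMod 3 × ZMod 3, nineTbl v = n := by decide +kernel
  have hNn : φK.range.Normal := by
    refine ⟨?_⟩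
    rintro _ ⟨v, rfl⟩ h
    obtain ⟨t, ht, htbl⟩ := exists_quartetTbl h.1 h.2
    have hn : nineTbl v.toAdd ∈ quartetNineTbls := by
      exact (by decide +kernel : ∀ v, nineTbl v ∈ quartetNineTbls) _
    obtain ⟨m, hm, hc⟩ := List.any_eq_true.1
      (List.all_eq_true.1 (List.all_eq_true.1 h9c t ht) _ hn)
    obtain ⟨w, rfl⟩ := hidx m hm
    exact ⟨Multiplicative.ofAdd w, Subtype.ext
      (htbl.conj (hφ v) (hφ (Multiplicative.ofAdd w)) hc).symm⟩
  obtain ⟨hgok, hgm⟩ := gl_checks
  have hdet : ∀ A : GL (Fin 2) (ZMod 3), A.1 0 0 * A.1 1 1 - A.1 0 1 * A.1 1 0 ≠ 0 := fun A => by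
    rw [← Matrix.det_fin_two]
    exact (Matrix.isUnit_iff_isUnit_det _).1 A.isUnit |>.ne_zero
  obtain ⟨ψ, hψ⟩ := exists_tblHom (G := GL (Fin 2) (ZMod 3))
    (fun A => glTbl (A.1 0 0) (A.1 0 1) (A.1 1 0) (A.1 1 1)) (fun A => hgok _ _ _ _) fun A B => by
      have h := (hgm _ _ _ _ (hdet A)).2.2 _ _ _ _ (hdet B)
      simpa [Matrix.mul_apply, Fin.sum_univ_two] using h
  have hψK : ∀ A, ψ A ∈ quartetK := fun A =>
    mem_quartetK_of_isTbl (hψ A) (hgm _ _ _ _ (hdet A)).1
  let q := (QuotientGroup.mk' φK.range).comp (ψ.codRestrict quartetK hψK)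
  have hqinj : Function.Injective q := by
    refine (injective_iff_map_eq_one q).2 fun A hA => ?_
    obtain ⟨v, hv⟩ := (QuotientGroup.eq_one_iff _).1 hA
    have e : φ v = ψ A := congrArg Subtype.val hv
    obtain ⟨e1, e2, e3, e4⟩ := (hgm _ _ _ _ (hdet A)).2.1 (List.any_eq_true.2
      ⟨nineTbl v.toAdd, (by decide +kernel : ∀ v, nineTbl v ∈ quartetNineTbls) _,
        List.all_eq_true.2 fun i hi =>
          beq_iff_eq.2 ((hψ A).tblAt_eq (e ▸ hφ v) (List.mem_range.1 hi))⟩)
    refine Units.ext (Matrix.ext fun i j => ?_)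
    fin_cases i <;> fin_cases j <;> simpa
  have hN : Nat.card φK.range = 9 := by
    rw [← Nat.card_congr (MonoidHom.ofInjective hφinj).toEquiv]
    simp
  refine ⟨φK.range, hNn, hN, ⟨(MulEquiv.ofBijective q ?_).symm⟩⟩
  refine (Nat.bijective_iff_injective_and_card q).2 ⟨hqinj, ?_⟩
  have h := Subgroup.card_eq_card_quotient_mul_card_subgroup φK.range
  rw [card_quartetK, hN] at h
  rw [natCard_GL23]
  omega

/-! ### Orbits on quartets -/

/-- Sort four numbers. -/
def sortFour : List ℕ → List ℕ
  | [a, b, c, d] =>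
    let a' := min a b; let b' := max a b; let c' := min c d; let d' := max c d
    let lo := min a' c'; let hi := max b' d'; let m1 := max a' c'; let m2 := min b' d'
    [lo, min m1 m2, max m1 m2, hi]
  | l => l

/-- The triples of the image of the standard quartet. -/
def imgQuartet (t : ℕ) : List ℕ := sortFour (quartetTriples.map (imgMask t))

/-- Images of a list of triples. -/
def imgTriples (t : ℕ) (X : List ℕ) : List ℕ := sortFour (X.map (imgMask t))

/-- The quartet with a list of triples. -/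
def decQ (l : List ℕ) : Finset (Finset GolayPt) := (l.map unmask).toFinset

theorem sortFour_perm : ∀ l, (sortFour l).Perm l
  | [] => List.Perm.refl _
  | [_] => List.Perm.refl _
  | [_, _] => List.Perm.refl _
  | [_, _, _] => List.Perm.refl _
  | _ :: _ :: _ :: _ :: _ :: _ => List.Perm.refl _
  | [a, b, c, d] => by
    have key : ∀ x y : ℕ, [min x y, max x y].Perm [x, y] := fun x y => by
      rcases le_total x y with h | h
      · rw [min_eq_left h, max_eq_right h]
      · rw [min_eq_right h, max_eq_left h]; exact List.Perm.swap x y []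
    show [min (min a b) (min c d), min (max (min a b) (min c d)) (min (max a b) (max c d)),
      max (max (min a b) (min c d)) (min (max a b) (max c d)), max (max a b) (max c d)].Perm _
    generalize ha : min a b = a' at *
    generalize hb : max a b = b' at *
    generalize hc : min c d = c' at *
    generalize hd : max c d = d' at *
    have h0 : [a', b', c', d'].Perm [a, b, c, d] := by
      have h1 := (key a b).append (key c d)
      rw [ha, hb, hc, hd] at h1
      exact h1
    refine List.Perm.trans ?_ h0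
    have h2 : [min a' c', max a' c', min b' d', max b' d'].Perm [a', c', b', d'] :=
      (key a' c').append (key b' d')
    have h3 : [min (max a' c') (min b' d'), max (max a' c') (min b' d')].Perm
        [max a' c', min b' d'] := key _ _
    refine ((h3.cons (min a' c')).append_right [max b' d']).trans (h2.trans ?_)
    exact (List.Perm.swap b' c' [d']).cons a'

theorem smul_decQ {g : PP} {t : ℕ} (h : IsTbl g t) (X : List ℕ) :
    g • decQ X = decQ (imgTriples t X) := by
  ext s
  simp only [decQ, imgTriples, Finset.mem_smul_finset, List.mem_toFinset, List.mem_map,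
    (sortFour_perm _).mem_iff]
  constructor
  · rintro ⟨_, ⟨a, ha, rfl⟩, rfl⟩
    exact ⟨_, ⟨a, ha, rfl⟩, (smul_unmask h a).symm⟩
  · rintro ⟨_, ⟨a, ha, rfl⟩, rfl⟩
    exact ⟨_, ⟨a, ha, rfl⟩, smul_unmask h a⟩

/-- The list of images of `X` under the stabiliser, without repetitions. -/
def orbitList (X : List ℕ) : List (List ℕ) := (quartetStabTbls.map fun t => imgTriples t X).dedup

theorem orbit_quartetK (X : List ℕ) :
    MulAction.orbit quartetK (decQ X) = decQ '' {l | l ∈ orbitList X} := by
  obtain ⟨h1, -, h3, -⟩ := quartetStab_checks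
  ext Q
  simp only [orbitList, Set.mem_image, Set.mem_ofPred_eq, List.mem_dedup, List.mem_map]
  constructor
  · rintro ⟨g, rfl⟩
    obtain ⟨t, ht, htbl⟩ := exists_quartetTbl g.1 g.2
    exact ⟨_, ⟨t, ht, rfl⟩, (smul_decQ htbl X).symm⟩
  · rintro ⟨_, ⟨t, ht, rfl⟩, rfl⟩
    obtain ⟨g, hg⟩ := exists_isTbl (List.all_eq_true.1 h1 t ht)
    exact ⟨⟨g, mem_quartetK_of_isTbl hg (List.all_eq_true.1 h3 t ht)⟩, smul_decQ hg X⟩

theorem decQ_injOn {l m : List ℕ} (hl : l.Pairwise (· < ·)) (hm : m.Pairwise (· < ·))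
    (hl' : ∀ a ∈ l, a < 2 ^ 24) (hm' : ∀ a ∈ m, a < 2 ^ 24) (h : decQ l = decQ m) : l = m := by
  refine List.Perm.eq_of_pairwise (fun a b _ _ h1 h2 => absurd h1 h2.asymm) hl hm
    ((List.perm_ext_iff_of_nodup (hl.imp fun h => h.ne) (hm.imp fun h => h.ne)).2 fun a => ?_)
  have key : ∀ {l m : List ℕ}, (∀ a ∈ l, a < 2 ^ 24) → (∀ a ∈ m, a < 2 ^ 24) → decQ l = decQ m →
      ∀ a ∈ l, a ∈ m := by
    intro l m hl' hm' h a ha
    have : unmask a ∈ decQ m := by
      rw [← h]; simp only [decQ, List.mem_toFinset, List.mem_map]; exact ⟨a, ha, rfl⟩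
    simp only [decQ, List.mem_toFinset, List.mem_map] at this
    obtain ⟨b, hb, e⟩ := this
    rwa [← unmask_injOn (hm' b hb) (hl' a ha) e]
  exact ⟨key hl' hm' h a, key hm' hl' h.symm a⟩

/-- The canonical-form check for an orbit list. -/
def orbitListOK (X : List ℕ) (n : ℕ) : Bool :=
  (orbitList X).length == n &&
    (orbitList X).all fun l => decide (l.Pairwise (· < ·)) && l.all fun a => decide (a < 2 ^ 24)

theorem ncard_orbit_quartetK {X : List ℕ} {n : ℕ} (h : orbitListOK X n = true) :
    (MulAction.orbit quartetK (decQ X)).ncard = n := by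
  simp only [orbitListOK, Bool.and_eq_true, beq_iff_eq, List.all_eq_true, decide_eq_true_eq] at h
  obtain ⟨hn, hl⟩ := h
  rw [orbit_quartetK, Set.InjOn.ncard_image,
    show {l | l ∈ orbitList X} = ↑(orbitList X).toFinset by ext; simp, Set.ncard_coe_finset,
    List.toFinset_card_of_nodup (l := orbitList X) (List.nodup_dedup _), hn]
  intro l hl1 m hm1 e
  exact decQ_injOn (hl l hl1).1 (hl m hm1).1 (hl l hl1).2 (hl m hm1).2 e

theorem decQ_stdQuartet : decQ quartetTriples = stdQuartet := rfl

/-- The four other orbit representatives. -/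
def orbitRep (i : ℕ) : List ℕ := imgQuartet (quartetOrbitReps.getD i 0)

set_option maxRecDepth 20000 in
theorem orbit_checks :
    (orbitListOK (orbitRep 0) 12 && orbitListOK (orbitRep 1) 27 && orbitListOK (orbitRep 2) 72 &&
      orbitListOK (orbitRep 3) 108 &&
      (quartetOrbitReps.all fun t => inM24 t && imgMask t dodMask == dodMask) &&
      quartetOrbitReps.length == 4) = true := by
  decide +kernel

theorem std_orbits : ∃ X₁ ∈ quartets (unmask dodMask), ∃ X₂ ∈ quartets (unmask dodMask),
    ∃ X₃ ∈ quartets (unmask dodMask), ∃ X₄ ∈ quartets (unmask dodMask),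
    (MulAction.orbit quartetK X₁).ncard = 12 ∧ (MulAction.orbit quartetK X₂).ncard = 27 ∧
    (MulAction.orbit quartetK X₃).ncard = 72 ∧ (MulAction.orbit quartetK X₄).ncard = 108 ∧
    quartets (unmask dodMask) = {stdQuartet} ∪ MulAction.orbit quartetK X₁ ∪
      MulAction.orbit quartetK X₂ ∪ MulAction.orbit quartetK X₃ ∪ MulAction.orbit quartetK X₄ := by
  have hc := orbit_checks
  simp only [Bool.and_eq_true, beq_iff_eq, List.all_eq_true] at hc
  obtain ⟨⟨⟨⟨⟨c1, c2⟩, c3⟩, c4⟩, cM⟩, clen⟩ := hc
  have hmem : ∀ i < 4, decQ (orbitRep i) ∈ quartets (unmask dodMask) := by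
    intro i hi
    obtain ⟨hM, hd⟩ := cM (quartetOrbitReps.getD i 0) (by
      rw [List.getD_eq_getElem _ _ (by omega)]; exact List.getElem_mem _)
    obtain ⟨g, hg⟩ := exists_isTbl (Bool.and_eq_true _ _ ▸ hM : okTbl _ = true ∧ _).1
    have h := smul_mem_quartets (stabK_le_M24 [] (mem_stabK_of_isTbl hg hM (by simp))) stdQuartet_mem
    rw [smul_unmask hg, hd, ← decQ_stdQuartet, smul_decQ hg] at h
    exact h
  obtain ⟨m1, m2, m3, m4⟩ := And.intro (hmem 0 (by norm_num))
    (And.intro (hmem 1 (by norm_num)) (And.intro (hmem 2 (by norm_num)) (hmem 3 (by norm_num))))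
  have o1 := ncard_orbit_quartetK c1
  have o2 := ncard_orbit_quartetK c2
  have o3 := ncard_orbit_quartetK c3
  have o4 := ncard_orbit_quartetK c4
  clear c1 c2 c3 c4 cM clen hmem
  revert m1 m2 m3 m4 o1 o2 o3 o4
  generalize decQ (orbitRep 0) = Y1
  generalize decQ (orbitRep 1) = Y2
  generalize decQ (orbitRep 2) = Y3
  generalize decQ (orbitRep 3) = Y4
  intro m1 m2 m3 m4 o1 o2 o3 o4
  refine ⟨Y1, m1, Y2, m2, Y3, m3, Y4, m4, o1, o2, o3, o4, ?_⟩
  have hinv : ∀ X ∈ quartets (unmask dodMask),
      MulAction.orbit quartetK X ⊆ quartets (unmask dodMask) := by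
    rintro X hX _ ⟨g, rfl⟩
    obtain ⟨g1, g2, -⟩ := mem_quartetK.1 g.2
    have := smul_mem_quartets g1 hX
    rwa [g2] at this
  have hstd : MulAction.orbit quartetK stdQuartet = {stdQuartet} := by
    ext Q
    constructor
    · rintro ⟨g, rfl⟩; exact (mem_quartetK.1 g.2).2.2
    · rintro rfl; exact MulAction.mem_orbit_self _
  have h0 : (MulAction.orbit quartetK stdQuartet).ncard = 1 := by rw [hstd, Set.ncard_singleton]
  have hdis : ∀ {X Y : Finset (Finset GolayPt)} {a b : ℕ}, (MulAction.orbit quartetK X).ncard = a →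
      (MulAction.orbit quartetK Y).ncard = b → a ≠ b →
      Disjoint (MulAction.orbit quartetK X) (MulAction.orbit quartetK Y) := by
    intro X Y a b hX hY hab
    rw [Set.disjoint_left]
    intro z hzX hzY
    rw [← MulAction.orbit_eq_iff.2 hzX, MulAction.orbit_eq_iff.2 hzY, hY] at hX
    exact hab hX.symm
  rw [← hstd]
  symm
  refine Set.eq_of_subset_of_ncard_le ?_ ?_ (Set.toFinite _)
  · simp only [Set.union_subset_iff]
    exact ⟨⟨⟨⟨hinv _ stdQuartet_mem, hinv _ m1⟩, hinv _ m2⟩, hinv _ m3⟩, hinv _ m4⟩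
  · have d01 := hdis h0 o1 (by norm_num)
    have d02 := hdis h0 o2 (by norm_num)
    have d03 := hdis h0 o3 (by norm_num)
    have d04 := hdis h0 o4 (by norm_num)
    have d12 := hdis o1 o2 (by norm_num)
    have d13 := hdis o1 o3 (by norm_num)
    have d14 := hdis o1 o4 (by norm_num)
    have d23 := hdis o2 o3 (by norm_num)
    have d24 := hdis o2 o4 (by norm_num)
    have d34 := hdis o3 o4 (by norm_num)
    rw [ncard_quartets dodMask_mem,
      Set.ncard_union_eq (Set.disjoint_union_left.2 ⟨Set.disjoint_union_left.2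
        ⟨Set.disjoint_union_left.2 ⟨d04, d14⟩, d24⟩, d34⟩),
      Set.ncard_union_eq (Set.disjoint_union_left.2 ⟨Set.disjoint_union_left.2 ⟨d03, d13⟩, d23⟩),
      Set.ncard_union_eq (Set.disjoint_union_left.2 ⟨d02, d12⟩), Set.ncard_union_eq d01,
      h0, o1, o2, o3, o4]

end CfsgLib.Golay
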