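import Cfsg.Agent.Lib.Golay.QuartetStab

/-!
The stabiliser of an arbitrary quartet: structure and orbits, transported from the standard one.
-/

set_option autoImplicit false

namespace CfsgLib.Golay

open Cfsg
open scoped Pointwise

/-- The standard stabiliser, carried to a given configuration. -/
noncomputable def quartetEquiv (c : M24) : quartetK ≃*
    ↥(MulAction.stabilizer M24 (c • unmask dodMask) ⊓ MulAction.stabilizer M24 (c • stdQuartet)) :=
  ((Subgroup.subgroupOfEquivOfLe quartetK_le).symm.trans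
    (MulEquiv.subgroupCongr stabilizer_quartet_std.symm)).trans
      (stabilizerInfEquiv c (unmask dodMask) stdQuartet)

theorem quartet_stab_structure {d : Finset GolayPt} (hd : d ∈ dodecads)
    {Q : Finset (Finset GolayPt)} (hQ : Q ∈ quartets d) :
    Nat.card ↥(MulAction.stabilizer M24 d ⊓ MulAction.stabilizer M24 Q) = 432 ∧
    (∃ (N : Subgroup ↥(MulAction.stabilizer M24 d ⊓ MulAction.stabilizer M24 Q)) (_ : N.Normal),
      Nat.card N = 9 ∧ Nonempty
        (↥(MulAction.stabilizer M24 d ⊓ MulAction.stabilizer M24 Q) ⧸ N ≃* GL (Fin 2) (ZMod 3))) ∧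
    ∀ p ∈ d, ∀ q ∈ d, ∃ g ∈ (MulAction.stabilizer M24 d ⊓ MulAction.stabilizer M24 Q),
      ((g : ↥M24) : Equiv.Perm GolayPt) p = q := by
  obtain ⟨p0, hp0⟩ := Finset.card_pos.1 (show 0 < d.card by rw [hd.2]; norm_num)
  obtain ⟨c, hc, hcd, hcQ, -⟩ := exists_map_quartet hd hQ hp0
  refine ⟨?_, ?_, fun p hp q hq => ?_⟩
  · subst hcd hcQ
    exact (Nat.card_congr (quartetEquiv ⟨c, hc⟩).toEquiv).symm.trans card_quartetK
  · subst hcd hcQ
    obtain ⟨N, hN, h9, ⟨e⟩⟩ := quartetK_structure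
    let E := quartetEquiv ⟨c, hc⟩
    have hNm : (N.map E.toMonoidHom).Normal := hN.map _ E.surjective
    refine ⟨N.map E.toMonoidHom, hNm, ?_,
      ⟨(QuotientGroup.congr N (N.map E.toMonoidHom) E rfl).symm.trans e⟩⟩
    rw [Subgroup.card_map_of_injective E.injective, h9]
  · obtain ⟨a, ha, had, haQ, hap⟩ := exists_map_quartet hd hQ hp
    obtain ⟨b, hb, hbd, hbQ, hbp⟩ := exists_map_quartet hd hQ hq
    refine ⟨⟨b * a⁻¹, mul_mem hb (inv_mem ha)⟩, Subgroup.mem_inf.2 ⟨?_, ?_⟩, ?_⟩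
    · show (b * a⁻¹) • d = d
      rw [mul_smul, ← had, inv_smul_smul, hbd, had]
    · show (b * a⁻¹) • Q = Q
      rw [mul_smul, ← haQ, inv_smul_smul, hbQ, haQ]
    · show (b * a⁻¹) p = q
      rw [← hap, Equiv.Perm.mul_apply, Equiv.Perm.inv_def, Equiv.symm_apply_apply, hbp]

theorem orbit_quartetEquiv (c : M24) (X : Finset (Finset GolayPt)) :
    MulAction.orbit ↥(MulAction.stabilizer M24 (c • unmask dodMask) ⊓
        MulAction.stabilizer M24 (c • stdQuartet)) (c • X) =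
      (fun Y : Finset (Finset GolayPt) => c • Y) '' MulAction.orbit quartetK X := by
  have key : ∀ k : quartetK, quartetEquiv c k • (c • X) = c • (k • X) := fun k => by
    show (c * (⟨(k : Equiv.Perm GolayPt), quartetK_le k.2⟩ : M24) * c⁻¹) • c • X = c • (k • X)
    rw [mul_smul, mul_smul, inv_smul_smul]
    rfl
  ext Y
  constructor
  · rintro ⟨g, rfl⟩
    obtain ⟨k, rfl⟩ := (quartetEquiv c).surjective g
    exact ⟨k • X, ⟨k, rfl⟩, (key k).symm⟩
  · rintro ⟨_, ⟨k, rfl⟩, rfl⟩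
    exact ⟨quartetEquiv c k, key k⟩

theorem quartet_orbits {d : Finset GolayPt} (hd : d ∈ dodecads) {Q : Finset (Finset GolayPt)}
    (hQ : Q ∈ quartets d) :
    ∃ X₁ ∈ quartets d, ∃ X₂ ∈ quartets d, ∃ X₃ ∈ quartets d, ∃ X₄ ∈ quartets d,
      (MulAction.orbit ↥(MulAction.stabilizer M24 d ⊓ MulAction.stabilizer M24 Q) X₁).ncard = 12 ∧
      (MulAction.orbit ↥(MulAction.stabilizer M24 d ⊓ MulAction.stabilizer M24 Q) X₂).ncard = 27 ∧
      (MulAction.orbit ↥(MulAction.stabilizer M24 d ⊓ MulAction.stabilizer M24 Q) X₃).ncard = 72 ∧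
      (MulAction.orbit ↥(MulAction.stabilizer M24 d ⊓ MulAction.stabilizer M24 Q) X₄).ncard = 108 ∧
      quartets d = {Q} ∪
        MulAction.orbit ↥(MulAction.stabilizer M24 d ⊓ MulAction.stabilizer M24 Q) X₁ ∪
        MulAction.orbit ↥(MulAction.stabilizer M24 d ⊓ MulAction.stabilizer M24 Q) X₂ ∪
        MulAction.orbit ↥(MulAction.stabilizer M24 d ⊓ MulAction.stabilizer M24 Q) X₃ ∪
        MulAction.orbit ↥(MulAction.stabilizer M24 d ⊓ MulAction.stabilizer M24 Q) X₄ := by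
  obtain ⟨p0, hp0⟩ := Finset.card_pos.1 (show 0 < d.card by rw [hd.2]; norm_num)
  obtain ⟨c', hc', hcd, hcQ, -⟩ := exists_map_quartet hd hQ hp0
  obtain ⟨c, rfl⟩ : ∃ c : M24, (c : Equiv.Perm GolayPt) = c' := ⟨⟨c', hc'⟩, rfl⟩
  change c • unmask dodMask = d at hcd
  change c • stdQuartet = Q at hcQ
  subst hcd hcQ
  obtain ⟨X1, m1, X2, m2, X3, m3, X4, m4, o1, o2, o3, o4, hcov⟩ := std_orbits
  have hm : ∀ X ∈ quartets (unmask dodMask), c • X ∈ quartets (c • unmask dodMask) :=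
    fun X hX => smul_mem_quartets c.2 hX
  have hn : ∀ X, (MulAction.orbit ↥(MulAction.stabilizer M24 (c • unmask dodMask) ⊓
      MulAction.stabilizer M24 (c • stdQuartet)) (c • X)).ncard =
        (MulAction.orbit quartetK X).ncard := fun X => by
    rw [orbit_quartetEquiv, Set.ncard_image_of_injective _ (MulAction.injective c)]
  refine ⟨c • X1, hm _ m1, c • X2, hm _ m2, c • X3, hm _ m3, c • X4, hm _ m4,
    (hn _).trans o1, (hn _).trans o2, (hn _).trans o3, (hn _).trans o4, ?_⟩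
  rw [orbit_quartetEquiv, orbit_quartetEquiv, orbit_quartetEquiv, orbit_quartetEquiv,
    ← Set.image_singleton (f := fun Y : Finset (Finset GolayPt) => c • Y), ← Set.image_union,
    ← Set.image_union, ← Set.image_union, ← Set.image_union, ← hcov]
  refine Set.Subset.antisymm (fun Y hY => ⟨c⁻¹ • Y, ?_, smul_inv_smul c Y⟩) ?_
  · have := smul_mem_quartets (c⁻¹).2 hY
    change (c⁻¹) • Y ∈ quartets ((c⁻¹) • c • unmask dodMask) at this
    rwa [inv_smul_smul] at this
  · rintro _ ⟨X, hX, rfl⟩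
    exact hm X hX

end CfsgLib.Golay
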