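import Cfsg.Agent.Lib.Golay.SuborbitCases
import Cfsg.Prelude.Def_SporadicCombinatorics

/-!
Quartets of a dodecad: two disjoint triples forming a hexad extend uniquely; count and transitivity.
-/

set_option autoImplicit false

namespace CfsgLib.Golay

open Cfsg
open scoped Pointwise

local notation "PP" => Equiv.Perm GolayPt

/-- The hexads of the standard dodecad through one of two standard triples. -/
def hexMasks : List ℕ :=
  [343, 591, 4127, 4441, 4700, 8967, 12359, 12378, 13080, 65807, 69914, 70151, 70169, 73751, 77852, 262679, 266503, 266524, 266778, 270351, 274457, 327751, 331864]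

/-- The triples of the standard quartet. -/
def quartetTriples : List ℕ := [7, 4120, 8960, 327744]

/-- The standard quartet. -/
def stdQuartet : Finset (Finset GolayPt) := (quartetTriples.map unmask).toFinset

theorem hexMasks_complete : allSpan basisMasks (fun n =>
    !(popc n == 8 && popc (n &&& dodMask) == 6 && (n &&& 7 == 7 || n &&& 4120 == 4120)) ||
      hexMasks.contains (n &&& dodMask)) = true := by
  decide +kernel

theorem mem_hexMasks {n : ℕ} (hn : n < 2 ^ 24) (h : unmask n ∈ hexadsOn (unmask dodMask))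
    (h7 : n &&& 7 = 7 ∨ n &&& 4120 = 4120) : n ∈ hexMasks := by
  obtain ⟨h6, o, ho, he⟩ := h
  obtain ⟨m, hm, h8, rfl⟩ := mem_octads_iff.1 ho
  rw [← unmask_and] at he
  have hlt : m &&& dodMask < 2 ^ 24 := Nat.and_lt_two_pow _ (by norm_num [dodMask])
  have e := unmask_injOn hlt hn he
  have := allSpan_iff.1 hexMasks_complete m hm
  have h6' : popc (m &&& dodMask) = 6 := by rw [e, ← card_unmask]; exact h6
  have hmm : (m &&& 7 == 7 || m &&& 4120 == 4120) = true := by
    rw [← e, Nat.land_assoc, Nat.land_assoc] at h7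
    simpa [show dodMask &&& 7 = 7 by decide +kernel,
      show dodMask &&& 4120 = 4120 by decide +kernel] using h7
  simp only [h8, h6', hmm, beq_self_eq_true, Bool.and_self, Bool.not_true, Bool.false_or,
    List.contains_eq_mem, decide_eq_true_eq] at this
  exact e ▸ this

theorem mem_hexadsOn_of_octad {m n : ℕ} (h : (inCode m && popc m == 8 && popc n == 6 &&
    (m &&& dodMask == n)) = true) : unmask n ∈ hexadsOn (unmask dodMask) := by
  simp only [Bool.and_eq_true, beq_iff_eq] at h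
  obtain ⟨⟨⟨hc, h8⟩, h6⟩, he⟩ := h
  exact ⟨(card_unmask n).trans h6, unmask m, mem_octads_iff.2 ⟨m, inCode_iff.1 hc, h8, rfl⟩,
    by rw [← unmask_and, he]⟩

theorem stdQuartet_mem : stdQuartet ∈ quartets (unmask dodMask) := by
  have h0 : ∀ a ∈ quartetTriples, popc a = 3 ∧ a &&& dodMask = a ∧ a < 2 ^ 24 := by decide +kernel
  have h1 : stdQuartet.card = 4 ∧ ∀ t ∈ stdQuartet, t.card = 3 ∧ t ⊆ unmask dodMask := by
    refine ⟨?_, fun t ht => ?_⟩
    · rw [stdQuartet, List.toFinset_card_of_nodup ((by decide : quartetTriples.Nodup).map_on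
        fun a ha b hb e => unmask_injOn (h0 a ha).2.2 (h0 b hb).2.2 e), List.length_map]
      rfl
    · simp only [stdQuartet, List.mem_toFinset, List.mem_map] at ht
      obtain ⟨a, ha, rfl⟩ := ht
      exact ⟨(card_unmask a).trans (h0 a ha).1, unmask_subset (h0 a ha).2.1⟩
  refine ⟨h1.1, h1.2, fun t ht u hu htu => ?_⟩
  simp only [stdQuartet, List.mem_toFinset, List.mem_map] at ht hu
  obtain ⟨a, ha, rfl⟩ := ht
  obtain ⟨b, hb, rfl⟩ := hu
  have key : ∀ a ∈ quartetTriples, ∀ b ∈ quartetTriples, a ≠ b →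
      ([5279, 140167, 459847, 145176, 463064, 337856].any fun m =>
        inCode m && popc m == 8 && popc (a ||| b) == 6 && (m &&& dodMask == (a ||| b))) = true := by
    decide +kernel
  obtain ⟨m, -, hm⟩ := List.any_eq_true.1 (key a ha b hb fun e => htu (e ▸ rfl))
  rw [← unmask_or]
  exact mem_hexadsOn_of_octad hm

theorem disjoint_of_hexad {d t u : Finset GolayPt} (ht : t.card = 3) (hu : u.card = 3)
    (h : t ∪ u ∈ hexadsOn d) : Disjoint t u := by
  rw [← Finset.card_union_eq_card_add_card, h.1, ht, hu]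

theorem std_unique {Q : Finset (Finset GolayPt)} (hQ : Q ∈ quartets (unmask dodMask))
    (hT : unmask 7 ∈ Q) (hU : unmask 4120 ∈ Q) : Q = stdQuartet := by
  have hne : unmask 7 ≠ unmask 4120 := by decide +kernel
  have hrest : unmask dodMask \ (unmask 7 ∪ unmask 4120) = unmask 336704 := by decide +kernel
  have key : ∀ n ∈ ([832, 8512, 65856, 262464, 8768, 66112, 262720, 73792, 270400, 327744, 8960,
      66304, 262912, 73984, 270592, 327936, 74240, 270848, 328192, 335872] : List ℕ),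
      7 ||| n ∈ hexMasks → 4120 ||| n ∈ hexMasks → 7 ||| (336704 ^^^ n) ∈ hexMasks →
      4120 ||| (336704 ^^^ n) ∈ hexMasks → n ∈ quartetTriples := by decide +kernel
  have hlist : (unmask 336704).powersetCard 3 = (([832, 8512, 65856, 262464, 8768, 66112, 262720,
      73792, 270400, 327744, 8960, 66304, 262912, 73984, 270592, 327936, 74240, 270848, 328192,
      335872] : List ℕ).map unmask).toFinset := by decide +kernel
  have hlt : ∀ n ∈ ([832, 8512, 65856, 262464, 8768, 66112, 262720, 73792, 270400, 327744, 8960,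
      66304, 262912, 73984, 270592, 327936, 74240, 270848, 328192, 335872] : List ℕ),
      n < 2 ^ 24 ∧ 336704 ^^^ n < 2 ^ 24 ∧ n &&& 336704 = n := by decide +kernel
  have hdis : ∀ t ∈ Q, ∀ u ∈ Q, t ≠ u → Disjoint t u := fun t ht u hu h =>
    disjoint_of_hexad (hQ.2.1 t ht).1 (hQ.2.1 u hu).1 (hQ.2.2 t ht u hu h)
  refine Finset.eq_of_subset_of_card_le (fun v hv => ?_) (by rw [stdQuartet_mem.1, hQ.1])
  rcases eq_or_ne v (unmask 7) with rfl | hv7
  · simp [stdQuartet, quartetTriples]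
  rcases eq_or_ne v (unmask 4120) with rfl | hv8
  · simp [stdQuartet, quartetTriples]
  obtain ⟨w, hw, hw7, hw8, hwv⟩ : ∃ w ∈ Q, w ≠ unmask 7 ∧ w ≠ unmask 4120 ∧ w ≠ v := by
    by_contra h
    push Not at h
    have : Q ⊆ {unmask 7, unmask 4120, v} := fun w hw => by
      simp only [Finset.mem_insert, Finset.mem_singleton]
      by_cases a : w = unmask 7
      · exact Or.inl a
      by_cases b : w = unmask 4120
      · exact Or.inr (Or.inl b)
      exact Or.inr (Or.inr (h w hw a b))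
    have := (Finset.card_le_card this).trans Finset.card_le_three
    rw [hQ.1] at this
    omega
  have hsub : ∀ x ∈ Q, x ≠ unmask 7 → x ≠ unmask 4120 → x ⊆ unmask 336704 := fun x hx a b => by
    rw [← hrest, Finset.subset_sdiff]
    exact ⟨(hQ.2.1 x hx).2, Finset.disjoint_union_right.2 ⟨hdis x hx _ hT a, hdis x hx _ hU b⟩⟩
  have hvmem := Finset.mem_powersetCard.2 ⟨hsub v hv hv7 hv8, (hQ.2.1 v hv).1⟩
  rw [hlist, List.mem_toFinset, List.mem_map] at hvmem
  obtain ⟨n, hn, rfl⟩ := hvmem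
  obtain ⟨hn1, hn2, hn3⟩ := hlt n hn
  have hwe : w = unmask (336704 ^^^ n) := by
    refine Finset.eq_of_subset_of_card_le (fun x hx => ?_) ?_
    · rw [unmask_xor, Finset.mem_symmDiff]
      exact Or.inl ⟨hsub w hw hw7 hw8 hx, Finset.disjoint_left.1 (hdis w hw _ hv hwv) hx⟩
    · rw [(hQ.2.1 w hw).1, unmask_xor, symmDiff_of_ge (unmask_subset hn3),
        Finset.card_sdiff_of_subset (unmask_subset hn3), (hQ.2.1 _ hv).1,
        show (unmask 336704).card = 6 by decide +kernel]
  subst hwe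
  have hx : ∀ {a b : ℕ}, a = 7 ∨ a = 4120 → b < 2 ^ 24 → unmask a ∈ Q → unmask b ∈ Q →
      unmask a ≠ unmask b → a ||| b ∈ hexMasks := fun {a b} ha hb h1 h2 h3 => by
    have hsf : ∀ a b : ℕ, (a ||| b) &&& a = a := fun a b => by
      apply Nat.eq_of_testBit_eq; intro i; simp only [Nat.testBit_and, Nat.testBit_or]
      cases a.testBit i <;> simp
    refine mem_hexMasks (Nat.or_lt_two_pow (by rcases ha with rfl | rfl <;> norm_num) hb)
      (unmask_or _ _ ▸ hQ.2.2 _ h1 _ h2 h3) ?_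
    rcases ha with rfl | rfl
    · exact Or.inl (hsf _ _)
    · exact Or.inr (hsf _ _)
  simp only [stdQuartet, List.mem_toFinset, List.mem_map]
  exact ⟨n, key n hn (hx (Or.inl rfl) hn1 hT hv hv7.symm) (hx (Or.inr rfl) hn1 hU hv hv8.symm)
    (hx (Or.inl rfl) hn2 hT hw hw7.symm) (hx (Or.inr rfl) hn2 hU hw hw8.symm), rfl⟩

theorem hexad_eq {d h h' : Finset GolayPt} (hd : d ∈ dodecads) (hh : h ∈ hexadsOn d)
    (hh' : h' ∈ hexadsOn d) (h5 : 5 ≤ (h ∩ h').card) : h = h' := by
  obtain ⟨-, o, ho, rfl⟩ := hh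
  obtain ⟨-, o', ho', rfl⟩ := hh'
  rw [octad_unique ho ho' (h5.trans (Finset.card_le_card
    (Finset.inter_subset_inter Finset.inter_subset_left Finset.inter_subset_left)))]

theorem smul_mem_hexadsOn {c : PP} (hc : c ∈ M24) {d h : Finset GolayPt} (hh : h ∈ hexadsOn d) :
    c • h ∈ hexadsOn (c • d) := by
  obtain ⟨h6, o, ho, rfl⟩ := hh
  exact ⟨(Finset.card_smul_finset _ _).trans h6, c • o, smul_mem_octads hc ho,
    (Finset.smul_finset_inter).symm⟩

theorem smul_mem_quartets {c : PP} (hc : c ∈ M24) {d : Finset GolayPt}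
    {Q : Finset (Finset GolayPt)} (hQ : Q ∈ quartets d) : c • Q ∈ quartets (c • d) := by
  refine ⟨(Finset.card_smul_finset _ _).trans hQ.1, fun t ht => ?_, fun t ht u hu htu => ?_⟩
  · obtain ⟨t, ht', rfl⟩ := Finset.mem_smul_finset.1 ht
    exact ⟨(Finset.card_smul_finset _ _).trans (hQ.2.1 t ht').1,
      Finset.smul_finset_subset_smul_finset (hQ.2.1 t ht').2⟩
  · obtain ⟨t, ht', rfl⟩ := Finset.mem_smul_finset.1 ht
    obtain ⟨u, hu', rfl⟩ := Finset.mem_smul_finset.1 hu
    rw [← Finset.smul_finset_union]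
    exact smul_mem_hexadsOn hc (hQ.2.2 t ht' u hu' fun e => htu (e ▸ rfl))

/-- Any five points of a dodecad are the images of the standard ones. -/
theorem exists_map_dodecad_five {d : Finset GolayPt} (hd : d ∈ dodecads) (y : Fin 5 ↪ GolayPt)
    (hy : ∀ i, y i ∈ d) :
    ∃ c ∈ M24, c • unmask dodMask = d ∧ ∀ i : Fin 5, c (pt i.val) = y i := by
  obtain ⟨⟨a, ha⟩, had⟩ := dodecad_transitive dodMask_mem hd
  change a • unmask dodMask = d at had
  let x0 : Fin 5 ↪ GolayPt := ⟨fun i => pt i.val, by decide +kernel⟩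
  have hx0 : ∀ i, x0 i ∈ unmask dodMask := by decide +kernel
  obtain ⟨g, hg, -⟩ := sharply_five_transitive hd (x0.trans a.toEmbedding) y
    (fun i => had ▸ Finset.smul_mem_smul_finset (hx0 i)) hy
  refine ⟨((g : M24) : PP) * a, mul_mem (g : M24).2 ha, ?_, fun i => hg i⟩
  rw [mul_smul, had]
  exact g.2

/-- A marked pair of triples comes from the standard one. -/
theorem exists_map_pair {d t u : Finset GolayPt} (hd : d ∈ dodecads) (ht : t.card = 3)
    (hu : u.card = 3) (hh : t ∪ u ∈ hexadsOn d) {p : GolayPt} (hp : p ∈ t) :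
    ∃ c ∈ M24, c • unmask dodMask = d ∧ c • unmask 7 = t ∧ c • unmask 4120 = u ∧ c (pt 0) = p := by
  classical
  have hsub : t ∪ u ⊆ d := by
    obtain ⟨-, o, -, e⟩ := hh; rw [← e]; exact Finset.inter_subset_right
  have hdis := disjoint_of_hexad ht hu hh
  obtain ⟨a, b, hab, he⟩ := Finset.card_eq_two.1 (show (t.erase p).card = 2 by
    rw [Finset.card_erase_of_mem hp, ht])
  have hte : t = {p, a, b} := by rw [← Finset.insert_erase hp, he]
  obtain ⟨e, f, g, hef, heg, hfg, hue⟩ := Finset.card_eq_three.1 hu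
  have hpa : p ≠ a := fun h => by
    have : a ∈ t.erase p := by simp [he]
    exact Finset.ne_of_mem_erase this h.symm
  have hpb : p ≠ b := fun h => by
    have : b ∈ t.erase p := by simp [he]
    exact Finset.ne_of_mem_erase this h.symm
  have hne : ∀ x ∈ t, ∀ z ∈ u, x ≠ z := fun x hx z hz h =>
    Finset.disjoint_left.1 hdis hx (h ▸ hz)
  have h1 := hne p hp e (by simp [hue]); have h2 := hne p hp f (by simp [hue])
  have h3 := hne a (by simp [hte]) e (by simp [hue]); have h4 := hne a (by simp [hte]) f (by simp [hue])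
  have h5 := hne b (by simp [hte]) e (by simp [hue]); have h6 := hne b (by simp [hte]) f (by simp [hue])
  let y : Fin 5 ↪ GolayPt := ⟨![p, a, b, e, f], by
    intro i j h
    fin_cases i <;> fin_cases j <;> simp at h <;> simp_all⟩
  have hy : ∀ i, y i ∈ d := by
    intro i
    apply hsub
    have hyi : ∀ i, (![p, a, b, e, f] : Fin 5 → GolayPt) i ∈ t ∪ u := by
      intro i; fin_cases i <;> simp [hte, hue]
    exact hyi i
  obtain ⟨c, hc, hcd, hci⟩ := exists_map_dodecad_five hd y hy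
  have hct : c • unmask 7 = t := by
    rw [show unmask 7 = {pt 0, pt 1, pt 2} by decide +kernel, hte, Finset.smul_finset_insert,
      Finset.smul_finset_insert, Finset.smul_finset_singleton]
    simp only [Equiv.Perm.smul_def]
    rw [show c (pt 0) = p from hci 0, show c (pt 1) = a from hci 1, show c (pt 2) = b from hci 2]
  have hhc : c • (unmask 7 ∪ unmask 4120) = t ∪ u := by
    refine hexad_eq hd ?_ hh ?_
    · rw [← hcd]
      refine smul_mem_hexadsOn hc (unmask_or 7 4120 ▸ mem_hexadsOn_of_octad (m := 5279) ?_)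
      decide +kernel
    · have : Finset.univ.map y ⊆ c • (unmask 7 ∪ unmask 4120) ∩ (t ∪ u) := by
        intro x hx
        obtain ⟨i, -, rfl⟩ := Finset.mem_map.1 hx
        refine Finset.mem_inter.2 ⟨hci i ▸ Finset.smul_mem_smul_finset ?_, ?_⟩
        · exact (by decide +kernel : ∀ i : Fin 5, pt i.val ∈ unmask 7 ∪ unmask 4120) i
        · show (![p, a, b, e, f] : Fin 5 → GolayPt) i ∈ t ∪ u
          fin_cases i <;> simp [hte, hue]
      simpa using Finset.card_le_card this
  refine ⟨c, hc, hcd, hct, ?_, hci 0⟩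
  rw [Finset.smul_finset_union, hct] at hhc
  have hd2 : Disjoint t (c • unmask 4120) := by
    rw [← hct, Finset.disjoint_iff_inter_eq_empty, ← Finset.smul_finset_inter,
      show unmask 7 ∩ unmask 4120 = ∅ by decide +kernel, Finset.smul_finset_empty]
  rw [← Finset.union_sdiff_cancel_left hdis, ← hhc, Finset.union_sdiff_cancel_left hd2]

theorem quartet_existsUnique {d : Finset GolayPt} (hd : d ∈ dodecads) {t u : Finset GolayPt}
    (ht : t.card = 3) (hu : u.card = 3) (hh : t ∪ u ∈ hexadsOn d) :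
    ∃! Q : Finset (Finset GolayPt), Q ∈ quartets d ∧ t ∈ Q ∧ u ∈ Q := by
  obtain ⟨p, hp⟩ := Finset.card_pos.1 (show 0 < t.card by omega)
  obtain ⟨c, hc, rfl, rfl, rfl, -⟩ := exists_map_pair hd ht hu hh hp
  refine ⟨c • stdQuartet, ⟨smul_mem_quartets hc stdQuartet_mem, Finset.smul_mem_smul_finset ?_,
    Finset.smul_mem_smul_finset ?_⟩, fun Q hQ => ?_⟩
  · simp [stdQuartet, quartetTriples]
  · simp [stdQuartet, quartetTriples]
  · have h := smul_mem_quartets (inv_mem hc) hQ.1
    rw [inv_smul_smul] at h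
    have e := std_unique h
      (by simpa using Finset.smul_mem_smul_finset (a := c⁻¹) hQ.2.1)
      (by simpa using Finset.smul_mem_smul_finset (a := c⁻¹) hQ.2.2)
    rw [← e, smul_inv_smul]

/-- Transitivity on quartets with a marked point. -/
theorem exists_map_quartet {d : Finset GolayPt} (hd : d ∈ dodecads) {Q : Finset (Finset GolayPt)}
    (hQ : Q ∈ quartets d) {p : GolayPt} (hp : p ∈ d) :
    ∃ c ∈ M24, c • unmask dodMask = d ∧ c • stdQuartet = Q ∧ c (pt 0) = p := by
  classical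
  have hdis : ∀ t ∈ Q, ∀ u ∈ Q, t ≠ u → Disjoint t u := fun t ht u hu h =>
    disjoint_of_hexad (hQ.2.1 t ht).1 (hQ.2.1 u hu).1 (hQ.2.2 t ht u hu h)
  have hU : Q.biUnion id = d := by
    refine Finset.eq_of_subset_of_card_le (Finset.biUnion_subset.2 fun t ht => (hQ.2.1 t ht).2) ?_
    rw [Finset.card_biUnion (s := Q) (t := id) hdis,
      Finset.sum_congr rfl fun t ht => show (id t).card = 3 from (hQ.2.1 t ht).1, Finset.sum_const,
      smul_eq_mul, hQ.1, hd.2]
  rw [← hU, Finset.mem_biUnion] at hp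
  obtain ⟨t, ht, hpt⟩ := hp
  obtain ⟨u, hu, hut⟩ := Finset.exists_mem_ne (show 1 < Q.card by rw [hQ.1]; norm_num) t
  obtain ⟨c, hc, hcd, hct, hcu, hcp⟩ :=
    exists_map_pair hd (hQ.2.1 t ht).1 (hQ.2.1 u hu).1 (hQ.2.2 t ht u hu hut.symm) hpt
  refine ⟨c, hc, hcd, (quartet_existsUnique hd (hQ.2.1 t ht).1 (hQ.2.1 u hu).1
    (hQ.2.2 t ht u hu hut.symm)).unique ⟨hcd ▸ smul_mem_quartets hc stdQuartet_mem, ?_, ?_⟩
    ⟨hQ, ht, hu⟩, hcp⟩
  · rw [← hct]; exact Finset.smul_mem_smul_finset (by simp [stdQuartet, quartetTriples])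
  · rw [← hcu]; exact Finset.smul_mem_smul_finset (by simp [stdQuartet, quartetTriples])

theorem quartets_transitive {d : Finset GolayPt} (hd : d ∈ dodecads)
    {Q Q' : Finset (Finset GolayPt)} (hQ : Q ∈ quartets d) (hQ' : Q' ∈ quartets d) :
    ∃ g : PP, g ∈ M24 ∧ g • d = d ∧ g • Q = Q' := by
  obtain ⟨p, hp⟩ := Finset.card_pos.1 (show 0 < d.card by rw [hd.2]; norm_num)
  obtain ⟨a, ha, had, haQ, -⟩ := exists_map_quartet hd hQ hp
  obtain ⟨b, hb, hbd, hbQ, -⟩ := exists_map_quartet hd hQ' hp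
  exact ⟨b * a⁻¹, mul_mem hb (inv_mem ha), by rw [mul_smul, ← had, inv_smul_smul, hbd, had],
    by rw [mul_smul, ← haQ, inv_smul_smul, hbQ]⟩

theorem ncard_quartets {d : Finset GolayPt} (hd : d ∈ dodecads) : (quartets d).ncard = 220 := by
  classical
  let Hx : Finset (Finset GolayPt) := (Set.toFinite (hexadsOn d)).toFinset
  have hHx : Hx.card = 132 := by
    rw [← Set.ncard_eq_toFinset_card (hexadsOn d) (Set.toFinite _), ← (dodecad_counts hd).1]
    have e : hexadsOn d = (fun o => o ∩ d) '' {o | o ∈ octads ∧ (o ∩ d).card = 6} := by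
      ext h
      constructor
      · rintro ⟨h6, o, ho, rfl⟩; exact ⟨o, ⟨ho, h6⟩, rfl⟩
      · rintro ⟨o, ⟨ho, h6⟩, rfl⟩; exact ⟨h6, o, ho, rfl⟩
    rw [e, Set.InjOn.ncard_image]
    intro o ho o' ho' h
    refine octad_unique ho.1 ho'.1 ?_
    calc 5 ≤ (o ∩ d).card := by rw [ho.2]; norm_num
      _ ≤ (o ∩ o').card := Finset.card_le_card fun x hx => Finset.mem_inter.2
          ⟨(Finset.mem_inter.1 hx).1, (Finset.mem_inter.1 ((show o ∩ d = o' ∩ d from h) ▸ hx)).1⟩
  let Qs : Finset (Finset (Finset GolayPt)) := (Set.toFinite (quartets d)).toFinset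
  let pairs := Hx.sigma fun h => h.powersetCard 3
  have hpairs : pairs.card = 2640 := by
    rw [Finset.card_sigma, Finset.sum_const_nat (m := 20) fun h hh => ?_, hHx]
    rw [Finset.card_powersetCard, ((Set.Finite.mem_toFinset _).1 hh).1]
    rfl
  have key : (Qs.sigma fun Q => Q.offDiag).card = pairs.card := by
    refine Finset.card_bij (fun x _ => ⟨x.2.1 ∪ x.2.2, x.2.1⟩) ?_ ?_ ?_
    · rintro ⟨Q, t, u⟩ hx
      simp only [Finset.mem_sigma, Finset.mem_offDiag, Qs, Set.Finite.mem_toFinset] at hx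
      simp only [pairs, Hx, Finset.mem_sigma, Set.Finite.mem_toFinset, Finset.mem_powersetCard]
      exact ⟨hx.1.2.2 t hx.2.1 u hx.2.2.1 hx.2.2.2, Finset.subset_union_left, (hx.1.2.1 t hx.2.1).1⟩
    · rintro ⟨Q, t, u⟩ hx ⟨Q', t', u'⟩ hy he
      simp only [Finset.mem_sigma, Finset.mem_offDiag, Qs, Set.Finite.mem_toFinset] at hx hy
      simp only [Sigma.mk.injEq, heq_eq_eq] at he
      obtain ⟨he, rfl⟩ := he
      have hdx := disjoint_of_hexad (hx.1.2.1 t hx.2.1).1 (hx.1.2.1 u hx.2.2.1).1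
        (hx.1.2.2 t hx.2.1 u hx.2.2.1 hx.2.2.2)
      have hdy := disjoint_of_hexad (hy.1.2.1 t hy.2.1).1 (hy.1.2.1 u' hy.2.2.1).1
        (hy.1.2.2 t hy.2.1 u' hy.2.2.1 hy.2.2.2)
      have hu : u = u' := by
        rw [← Finset.union_sdiff_cancel_left hdx, he, Finset.union_sdiff_cancel_left hdy]
      subst hu
      obtain rfl := (quartet_existsUnique hd (hx.1.2.1 t hx.2.1).1 (hx.1.2.1 u hx.2.2.1).1
        (hx.1.2.2 t hx.2.1 u hx.2.2.1 hx.2.2.2)).unique ⟨hx.1, hx.2.1, hx.2.2.1⟩
        ⟨hy.1, hy.2.1, hy.2.2.1⟩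
      rfl
    · rintro ⟨h, t⟩ hb
      simp only [pairs, Hx, Finset.mem_sigma, Set.Finite.mem_toFinset, Finset.mem_powersetCard] at hb
      obtain ⟨hh, hts, ht⟩ := hb
      have hu : (h \ t).card = 3 := by rw [Finset.card_sdiff_of_subset hts, hh.1, ht]
      have hun : t ∪ h \ t = h := Finset.union_sdiff_of_subset hts
      obtain ⟨Q, hQ, -⟩ := quartet_existsUnique hd ht hu (hun.symm ▸ hh)
      refine ⟨⟨Q, t, h \ t⟩, ?_, by simp [hun]⟩
      simp only [Finset.mem_sigma, Finset.mem_offDiag, Qs, Set.Finite.mem_toFinset]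
      refine ⟨hQ.1, hQ.2.1, hQ.2.2, fun e => ?_⟩
      obtain ⟨x, hx⟩ := Finset.card_pos.1 (show 0 < t.card by omega)
      exact (Finset.mem_sdiff.1 (e ▸ hx : x ∈ h \ t)).2 hx
  rw [hpairs, Finset.card_sigma, Finset.sum_const_nat (m := 12) fun Q hQ => ?_] at key
  · rw [Set.ncard_eq_toFinset_card (quartets d) (Set.toFinite _)]
    change Qs.card = 220
    omega
  · rw [Finset.offDiag_card, ((Set.Finite.mem_toFinset _).1 hQ).1]

end CfsgLib.Golay
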