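import Cfsg.Agent.Lib.Golay.SuborbitCases

/-!
Suborbits of a point or two-point stabiliser in `Cfsg.M24` on dodecads through the point.
-/

set_option autoImplicit false

namespace CfsgLib.Golay

open Cfsg
open scoped Pointwise

local notation "PP" => Equiv.Perm GolayPt

set_option maxHeartbeats 2000000 in
theorem dodPointChain_ok0 :
    chainOK [1, 340831] dodPointChain.1 dodPointChain.2 = true := by
  decide +kernel

set_option maxHeartbeats 2000000 in
theorem dodPointChain_ok1 :
    chainOK [1727659, 1, 340831] dodPointChain1.1 dodPointChain1.2 = true := by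
  decide +kernel

set_option maxHeartbeats 2000000 in
theorem dodPointChain_ok2 :
    chainOK [28637, 1, 340831] dodPointChain2.1 dodPointChain2.2 = true := by
  decide +kernel

set_option maxHeartbeats 2000000 in
theorem dodPointChain_ok3 :
    chainOK [195645, 1, 340831] dodPointChain3.1 dodPointChain3.2 = true := by
  decide +kernel

theorem dodPointChains_ok : (chainOK [1, 340831] dodPointChain.1 dodPointChain.2 &&
      chainOK [1727659, 1, 340831] dodPointChain1.1 dodPointChain1.2 &&
      chainOK [28637, 1, 340831] dodPointChain2.1 dodPointChain2.2 &&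
      chainOK [195645, 1, 340831] dodPointChain3.1 dodPointChain3.2) = true := by
  simp only [dodPointChain_ok0, dodPointChain_ok1, dodPointChain_ok2, dodPointChain_ok3, Bool.and_self]

theorem dodPointOrders :
    [chainOrder dodPointChain.1, chainOrder dodPointChain1.1, chainOrder dodPointChain2.1, chainOrder dodPointChain3.1] =
      [7920, 48, 24, 10] := by
  decide +kernel

theorem inter_twelve {d d' : Finset GolayPt} (hd : d ∈ dodecads) (hd' : d' ∈ dodecads)
    (h : (d ∩ d').card = 12) : d' = d := by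
  have h1 := Finset.eq_of_subset_of_card_le Finset.inter_subset_left (s := d ∩ d') (by rw [h, hd.2])
  have h2 := Finset.eq_of_subset_of_card_le Finset.inter_subset_right (s := d ∩ d') (by rw [h, hd'.2])
  rw [← h2, h1]

theorem dodecad_inter_cases {d d' : Finset GolayPt} (hd : d ∈ dodecads) (hd' : d' ∈ dodecads)
    {x : GolayPt} (hx : x ∈ d) (hx' : x ∈ d') :
    (d ∩ d').card = 4 ∨ (d ∩ d').card = 8 ∨ (d ∩ d').card = 6 ∨ (d ∩ d').card = 12 := by
  have h := card_mem_weights (symmDiff_mem_supports hd.1 hd'.1)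
  rw [show symmDiff d d' = (d ∪ d') \ (d ∩ d') from symmDiff_eq_sup_sdiff_inf d d',
    Finset.card_sdiff_of_subset Finset.inter_subset_union] at h
  have := Finset.card_union_add_card_inter d d'
  have := hd.2
  have := hd'.2
  have := Finset.card_le_card (Finset.inter_subset_left (s₁ := d) (s₂ := d'))
  have := Finset.card_pos.2 (⟨x, Finset.mem_inter.2 ⟨hx, hx'⟩⟩ : (d ∩ d').Nonempty)
  omega

set_option maxHeartbeats 1600000 in
/-- Dodecads through a point: suborbits 165, 330, 792. -/
theorem dodPoint_suborbits {x : GolayPt} {o : Finset GolayPt} (ho : o ∈ dodecads) (hx : x ∈ o) :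
    {o' : Finset GolayPt | o' ∈ dodecads ∧ x ∈ o' ∧ (o ∩ o').card = 4}.ncard = 165 ∧
    {o' : Finset GolayPt | o' ∈ dodecads ∧ x ∈ o' ∧ (o ∩ o').card = 8}.ncard = 330 ∧
    {o' : Finset GolayPt | o' ∈ dodecads ∧ x ∈ o' ∧ (o ∩ o').card = 6}.ncard = 792 ∧
    ∀ o' o'' : Finset GolayPt, o' ∈ dodecads → o'' ∈ dodecads → x ∈ o' → x ∈ o'' →
      (o ∩ o').card = (o ∩ o'').card → ∃ g : PP, g ∈ M24 ∧ g x = x ∧ g • o = o ∧ g • o' = o'' := by
  obtain ⟨⟨c, hc⟩, hcd, hcp⟩ := card_stabilizer_dodecad_point ho hx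
  change c • unmask dodMask = o at hcd
  change c (pt 0) = x at hcp
  subst hcd hcp
  have hk : ∀ k, ∀ s, (c • s ∈ dodecads ∧ c (pt 0) ∈ c • s ∧
      (c • unmask dodMask ∩ c • s).card = k) ↔ (s ∈ dodecads ∧ pt 0 ∈ s ∧ (unmask dodMask ∩ s).card = k) := fun k s => by
    rw [smul_dodecads_iff hc, apply_mem_smul_iff, card_smul_inter]
  have hcount : ∀ k, {s | s ∈ dodecads ∧ pt 0 ∈ s ∧ (unmask dodMask ∩ s).card = k}.ncard =
      countSpan basisMasks (fun n => popc n == 12 && (n.testBit 0 && popc (dodMask &&& n) == k)) :=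
    fun k => ncard_dodecads_sep _ _ fun n _ => by
      simp [card_unmask, ← unmask_and, idx_pt, and_assoc]
  have n4 := (hcount 4).trans (show _ = 165 by decide +kernel)
  have n8 := (hcount 8).trans (show _ = 330 by decide +kernel)
  have n6 := (hcount 6).trans (show _ = 792 by decide +kernel)
  refine ⟨(ncard_setOf_transport (hk 4)).trans n4, (ncard_setOf_transport (hk 8)).trans n8,
    (ncard_setOf_transport (hk 6)).trans n6, fun o' o'' ho' ho'' hx' hx'' he => ?_⟩
  have hch := dodPointChains_ok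
  simp only [Bool.and_eq_true] at hch
  have hord := dodPointOrders
  simp only [List.cons.injEq, and_true] at hord
  have hinv : ∀ k, ∀ g ∈ stabK [1, 340831],
      ∀ y ∈ {s | s ∈ dodecads ∧ pt 0 ∈ s ∧ (unmask dodMask ∩ s).card = k}, g • y ∈ {s | s ∈ dodecads ∧ pt 0 ∈ s ∧ (unmask dodMask ∩ s).card = k} := by
    intro k g hg y hy
    simp only [Set.mem_ofPred_eq] at hy ⊢
    rw [card_inter_smul_of_fix (fix_of_mem hg (n := dodMask) (by simp [dodMask])),
      mem_smul_of_fix (fix_pt_of_mem hg (i := 0) (by norm_num) (by simp))]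
    exact ⟨smul_mem_dodecads (stabK_le_M24 _ hg) hy.1, hy.2⟩
  have tr : ∀ k m l, unmask m ∈ {s | s ∈ dodecads ∧ pt 0 ∈ s ∧ (unmask dodMask ∩ s).card = k} →
      ({s | s ∈ dodecads ∧ pt 0 ∈ s ∧ (unmask dodMask ∩ s).card = k}.ncard * l = 7920) →
      Nat.card (stabK (m :: [1, 340831])) = l → (c • unmask dodMask ∩ o').card = k →
      ∃ g : PP, g ∈ M24 ∧ g (c (pt 0)) = c (pt 0) ∧
        g • c • unmask dodMask = c • unmask dodMask ∧ g • o' = o'' := by
    intro k m l hm hl hs hk'
    obtain ⟨g, hg, hfix, hge⟩ := exists_transport hc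
      (P := fun s => s ∈ dodecads ∧ c (pt 0) ∈ s ∧ (c • unmask dodMask ∩ s).card = k) (hk k)
      (suborbit_std hm (hinv k) rfl (by rw [card_stabK hch.1.1.1, hord.1, hl]) hs)
      ⟨ho', hx', hk'⟩ ⟨ho'', hx'', he ▸ hk'⟩
    refine ⟨g, hg, ?_, hfix dodMask (by simp [dodMask]), hge⟩
    · have := hfix (2 ^ 0) (by simp)
      rwa [smul_singleton_apply c 0 (by norm_num), smul_singleton_eq_iff] at this
  rcases dodecad_inter_cases ho ho' hx hx' with h | h | h | h
  · exact tr 4 1727659 48 ⟨mem_dodecads_iff.2 ⟨_, inCode_iff.1 (by decide +kernel), by decide +kernel, rfl⟩,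
      by decide +kernel, by decide +kernel⟩ (by rw [n4]) ((card_stabK hch.1.1.2).trans hord.2.1) h
  · exact tr 8 28637 24 ⟨mem_dodecads_iff.2 ⟨_, inCode_iff.1 (by decide +kernel), by decide +kernel, rfl⟩,
      by decide +kernel, by decide +kernel⟩ (by rw [n8]) ((card_stabK hch.1.2).trans hord.2.2.1) h
  · exact tr 6 195645 10 ⟨mem_dodecads_iff.2 ⟨_, inCode_iff.1 (by decide +kernel), by decide +kernel, rfl⟩,
      by decide +kernel, by decide +kernel⟩ (by rw [n6]) ((card_stabK hch.2).trans hord.2.2.2) h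
  · refine ⟨1, one_mem _, rfl, one_smul _ _, ?_⟩
    rw [one_smul, inter_twelve ho ho' h, inter_twelve ho ho'' (he ▸ h)]

end CfsgLib.Golay
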