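import Cfsg.Agent.Lib.Golay.SuborbitCases

/-!
Suborbits of the two-point stabiliser in `Cfsg.M24` on the pairs of further points.
-/

set_option autoImplicit false

namespace CfsgLib.Golay

open Cfsg
open scoped Pointwise

local notation "PP" => Equiv.Perm GolayPt

set_option maxHeartbeats 2000000 in
theorem duadChain_ok0 :
    chainOK [8388608, 1, 20] duadChain.1 duadChain.2 = true := by
  decide +kernel

set_option maxHeartbeats 2000000 in
theorem duadChain_ok1 :
    chainOK [6, 8388608, 1, 20] duadChain1.1 duadChain1.2 = true := by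
  decide +kernel

set_option maxHeartbeats 2000000 in
theorem duadChain_ok2 :
    chainOK [96, 8388608, 1, 20] duadChain2.1 duadChain2.2 = true := by
  decide +kernel

set_option maxHeartbeats 2000000 in
theorem duadChain_ok3 :
    chainOK [10, 8388608, 1, 20] duadChain3.1 duadChain3.2 = true := by
  decide +kernel

theorem duadChains_ok : (chainOK [8388608, 1, 20] duadChain.1 duadChain.2 &&
      chainOK [6, 8388608, 1, 20] duadChain1.1 duadChain1.2 &&
      chainOK [96, 8388608, 1, 20] duadChain2.1 duadChain2.2 &&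
      chainOK [10, 8388608, 1, 20] duadChain3.1 duadChain3.2) = true := by
  simp only [duadChain_ok0, duadChain_ok1, duadChain_ok2, duadChain_ok3, Bool.and_self]

theorem duadOrders :
    [chainOrder duadChain.1, chainOrder duadChain1.1, chainOrder duadChain2.1,
      chainOrder duadChain3.1] = [1920, 48, 64, 12] := by
  decide +kernel

/-- The masks of all pairs of points. -/
def pairMasks : List ℕ :=
  (List.range 24).flatMap fun i => (List.range i).map fun j => 2 ^ i + 2 ^ j

/-- The octads through the four standard points `23, 0, 2, 4`. -/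
def fourOctads : List ℕ := [8391797, 8966165, 9830549, 10486557, 12656663]

/-- Pairs apart from the two standard points. -/
def isFreePair (n : ℕ) : Bool := popc n == 2 && !n.testBit 23 && !n.testBit 0

/-- Some octad through the standard four points contains the pair. -/
def isGoodPair (n : ℕ) : Bool := fourOctads.any fun o => n &&& o == n

/-- The predicate on pairs, relative to points `p`, `q` and a pair `s`. -/
def DuadFam (p q : GolayPt) (s : Finset GolayPt) (k : ℕ) (b : Bool) (t : Finset GolayPt) : Prop :=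
  (t.card = 2 ∧ p ∉ t ∧ q ∉ t) ∧ (s ∩ t).card = k ∧
    ((∃ o ∈ octads, p ∈ o ∧ q ∈ o ∧ s ∪ t ⊆ o) ↔ b = true)

theorem fourOctads_checks :
    (fourOctads.all fun o => inCode o && (popc o == 8) && (o &&& 8388629 == 8388629)) = true ∧
    allSpan basisMasks (fun n => !(popc n == 8 && n &&& 8388629 == 8388629) ||
      fourOctads.any (· == n)) = true := by
  decide +kernel

theorem good_iff (n : ℕ) (hn : n < 2 ^ 24) :
    (∃ o ∈ octads, pt 23 ∈ o ∧ pt 0 ∈ o ∧ unmask 20 ∪ unmask n ⊆ o) ↔ isGoodPair n = true := by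
  obtain ⟨h1, h2⟩ := fourOctads_checks
  have hb : unmask 8388629 = insert (pt 23) (insert (pt 0) (unmask 20)) := by decide +kernel
  simp only [isGoodPair, List.any_eq_true, beq_iff_eq]
  constructor
  · rintro ⟨o, ho, hp, hq, hsub⟩
    obtain ⟨m, hm, h8, rfl⟩ := mem_octads_iff.1 ho
    have h4 : m &&& 8388629 = 8388629 := by
      refine unmask_injOn (Nat.and_lt_two_pow _ (by norm_num)) (by norm_num) ?_
      rw [unmask_and, Finset.inter_eq_right, hb]
      exact Finset.insert_subset hp (Finset.insert_subset hq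
        ((Finset.union_subset_iff.1 hsub).1))
    have := allSpan_iff.1 h2 m hm
    simp only [h8, h4, beq_self_eq_true, Bool.and_self, Bool.not_true, Bool.false_or,
      List.any_eq_true, beq_iff_eq] at this
    obtain ⟨a, ha, rfl⟩ := this
    refine ⟨a, ha, unmask_injOn (Nat.and_lt_two_pow _ (lt_of_mem_codeMasks hm)) hn ?_⟩
    rw [unmask_and, Finset.inter_eq_left]
    exact (Finset.union_subset_iff.1 hsub).2
  · rintro ⟨o, ho, hno⟩
    have := List.all_eq_true.1 h1 o ho
    simp only [Bool.and_eq_true, beq_iff_eq] at this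
    obtain ⟨⟨hc, h8⟩, h4⟩ := this
    have hsub : unmask 8388629 ⊆ unmask o := unmask_subset ((Nat.land_comm _ _).trans h4)
    rw [hb, Finset.insert_subset_iff, Finset.insert_subset_iff] at hsub
    exact ⟨_, mem_octads_iff.2 ⟨o, inCode_iff.1 hc, h8, rfl⟩, hsub.1, hsub.2.1,
      Finset.union_subset hsub.2.2 (unmask_subset hno)⟩

theorem pairMasks_checks : pairMasks.Nodup ∧ ∀ n ∈ pairMasks, n < 2 ^ 24 :=
  ⟨by decide +kernel, by decide +kernel⟩

theorem exists_pairMask {t : Finset GolayPt} (ht : t.card = 2) : ∃ n ∈ pairMasks, unmask n = t := by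
  obtain ⟨a, b, hab, rfl⟩ := Finset.card_eq_two.1 ht
  have key : ∀ i < 24, ∀ j < i, 2 ^ i + 2 ^ j = 2 ^ i ||| 2 ^ j := by decide +kernel
  rcases Nat.lt_or_gt_of_ne (fun e => hab (idx_injective e)) with h | h
  · refine ⟨2 ^ idx b + 2 ^ idx a, List.mem_flatMap.2 ⟨idx b, List.mem_range.2 (idx_lt b),
      List.mem_map.2 ⟨idx a, List.mem_range.2 h, rfl⟩⟩, ?_⟩
    rw [key _ (idx_lt b) _ h, unmask_or, unmask_two_pow, unmask_two_pow, Finset.union_comm,
      ← Finset.insert_eq]
  · refine ⟨2 ^ idx a + 2 ^ idx b, List.mem_flatMap.2 ⟨idx a, List.mem_range.2 (idx_lt a),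
      List.mem_map.2 ⟨idx b, List.mem_range.2 h, rfl⟩⟩, ?_⟩
    rw [key _ (idx_lt a) _ h, unmask_or, unmask_two_pow, unmask_two_pow, ← Finset.insert_eq]

/-- The mask test for `DuadFam` at the standard configuration. -/
def duadTest (k : ℕ) (b : Bool) (n : ℕ) : Bool :=
  isFreePair n && popc (20 &&& n) == k && isGoodPair n == b

theorem duadTest_iff {k : ℕ} {b : Bool} {n : ℕ} (hn : n < 2 ^ 24) :
    DuadFam (pt 23) (pt 0) (unmask 20) k b (unmask n) ↔ duadTest k b n = true := by
  rw [DuadFam, good_iff n hn]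
  simp only [duadTest, isFreePair, Bool.and_eq_true, beq_iff_eq, Bool.not_eq_true', card_unmask,
    mem_unmask, idx_pt (show 23 < 24 by norm_num), idx_pt (show 0 < 24 by norm_num), ← unmask_and,
    Bool.not_eq_true]
  cases isGoodPair n <;> cases b <;> simp [and_assoc]

theorem ncard_duadFam (k : ℕ) (b : Bool) :
    {t | DuadFam (pt 23) (pt 0) (unmask 20) k b t}.ncard = pairMasks.countP (duadTest k b) := by
  have h : {t | DuadFam (pt 23) (pt 0) (unmask 20) k b t} =
      unmask '' ↑((pairMasks.filter (duadTest k b)).toFinset) := by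
    ext t
    simp only [Set.mem_ofPred_eq, List.coe_toFinset, Set.mem_image, List.mem_filter]
    constructor
    · intro ht
      obtain ⟨n, hn, rfl⟩ := exists_pairMask ht.1.1
      exact ⟨n, ⟨hn, (duadTest_iff (pairMasks_checks.2 n hn)).1 ht⟩, rfl⟩
    · rintro ⟨n, ⟨hn, hp⟩, rfl⟩
      exact (duadTest_iff (pairMasks_checks.2 n hn)).2 hp
  rw [h, Set.InjOn.ncard_image, Set.ncard_coe_finset,
    List.toFinset_card_of_nodup (pairMasks_checks.1.filter _), List.countP_eq_length_filter]
  intro a ha c hc e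
  simp only [List.coe_toFinset, Set.mem_ofPred_eq, List.mem_filter] at ha hc
  exact unmask_injOn (pairMasks_checks.2 a ha.1) (pairMasks_checks.2 c hc.1) e

theorem duadFam_smul {c : PP} (hc : c ∈ M24) (p q : GolayPt) (s t : Finset GolayPt) (k : ℕ)
    (b : Bool) : DuadFam (c p) (c q) (c • s) k b (c • t) ↔ DuadFam p q s k b t := by
  unfold DuadFam
  rw [Finset.card_smul_finset, apply_mem_smul_iff, apply_mem_smul_iff, card_smul_inter]
  refine and_congr_right fun _ => and_congr_right fun _ => iff_congr ⟨?_, ?_⟩ Iff.rfl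
  · rintro ⟨o, ho, hp, hq, hsub⟩
    refine ⟨c⁻¹ • o, smul_mem_octads (inv_mem hc) ho, (apply_mem_smul_iff c _ _).1 (by
      rwa [smul_inv_smul]), (apply_mem_smul_iff c _ _).1 (by rwa [smul_inv_smul]), ?_⟩
    rwa [← Finset.smul_finset_subset_smul_finset_iff (a := c), smul_inv_smul, Finset.smul_finset_union]
  · rintro ⟨o, ho, hp, hq, hsub⟩
    refine ⟨c • o, smul_mem_octads hc ho, (apply_mem_smul_iff c _ _).2 hp,
      (apply_mem_smul_iff c _ _).2 hq, ?_⟩
    rwa [← Finset.smul_finset_union, Finset.smul_finset_subset_smul_finset_iff]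

theorem duad_classes : ∀ n ∈ pairMasks, isFreePair n = true → n ≠ 20 →
    duadTest 1 true n = true ∨ duadTest 0 true n = true ∨ duadTest 0 false n = true := by
  decide +kernel

/-- Pairs of further points: classes 30 and 160 apart from `s`, each class one orbit. -/
theorem duad_suborbits {p q : GolayPt} (hpq : p ≠ q) {s : Finset GolayPt}
    (hs : s.card = 2 ∧ p ∉ s ∧ q ∉ s) :
    {t | DuadFam p q s 0 true t}.ncard = 30 ∧ {t | DuadFam p q s 0 false t}.ncard = 160 ∧
    ∀ t t' : Finset GolayPt, (t.card = 2 ∧ p ∉ t ∧ q ∉ t) → (t'.card = 2 ∧ p ∉ t' ∧ q ∉ t') →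
      t ≠ s → t' ≠ s → (s ∩ t).card = (s ∩ t').card →
      ((∃ o ∈ octads, p ∈ o ∧ q ∈ o ∧ s ∪ t ⊆ o) ↔ (∃ o ∈ octads, p ∈ o ∧ q ∈ o ∧ s ∪ t' ⊆ o)) →
      ∃ g : PP, g ∈ M24 ∧ g p = p ∧ g q = q ∧ g • s = s ∧ g • t = t' := by
  obtain ⟨⟨hs2, hps, hqs⟩, a, b, hab, rfl⟩ := And.intro hs (Finset.card_eq_two.1 hs.1)
  simp only [Finset.mem_insert, Finset.mem_singleton, not_or] at hps hqs
  obtain ⟨r, hr⟩ : ∃ r, r ∉ ({p, q, a, b} : Finset GolayPt) := by
    by_contra h
    push Not at h
    have h4 := Finset.card_le_four (a := p) (b := q) (c := a) (d := b)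
    rw [Finset.eq_univ_iff_forall.2 h] at h4
    simp at h4
  simp only [Finset.mem_insert, Finset.mem_singleton, not_or] at hr
  let x : Fin 5 ↪ GolayPt := ⟨![pt 23, pt 0, pt 2, pt 4, pt 1], by decide +kernel⟩
  let y : Fin 5 ↪ GolayPt := ⟨![p, q, a, b, r], by
    intro i j h
    fin_cases i <;> fin_cases j <;> simp at h <;> simp_all [eq_comm]⟩
  obtain ⟨c, hc, hcx⟩ := exists_M24_map x y
  have hcp : c (pt 23) = p := hcx 0
  have hcq : c (pt 0) = q := hcx 1
  have hcs : c • unmask 20 = {a, b} := by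
    rw [show unmask 20 = {pt 2, pt 4} by decide +kernel, Finset.smul_finset_insert,
      Finset.smul_finset_singleton]
    exact congr_arg₂ (fun u v => insert u ({v} : Finset GolayPt)) (hcx 2) (hcx 3)
  rw [← hcs]
  subst hcp hcq
  have hk : ∀ k b t, DuadFam (c (pt 23)) (c (pt 0)) (c • unmask 20) k b (c • t) ↔
      DuadFam (pt 23) (pt 0) (unmask 20) k b t := fun k b t => duadFam_smul hc _ _ _ _ _ _
  have n1 := (ncard_duadFam 1 true).trans (show _ = 40 by decide +kernel)
  have n2 := (ncard_duadFam 0 true).trans (show _ = 30 by decide +kernel)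
  have n3 := (ncard_duadFam 0 false).trans (show _ = 160 by decide +kernel)
  refine ⟨(ncard_setOf_transport (hk 0 true)).trans n2, (ncard_setOf_transport (hk 0 false)).trans n3,
    fun t t' ht ht' hts ht's hk' hgood => ?_⟩
  have hch := duadChains_ok
  simp only [Bool.and_eq_true] at hch
  have hord := duadOrders
  simp only [List.cons.injEq, and_true] at hord
  have hinv : ∀ k b, ∀ g ∈ stabK [8388608, 1, 20],
      ∀ y ∈ {t | DuadFam (pt 23) (pt 0) (unmask 20) k b t},
        g • y ∈ {t | DuadFam (pt 23) (pt 0) (unmask 20) k b t} := by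
    intro k b g hg y hy
    have h := (duadFam_smul (stabK_le_M24 _ hg) (pt 23) (pt 0) (unmask 20) y k b).2 hy
    rwa [fix_pt_of_mem hg (i := 23) (by norm_num) (by simp),
      fix_pt_of_mem hg (i := 0) (by norm_num) (by simp), fix_of_mem hg (n := 20) (by simp)] at h
  have tr : ∀ k b m l, m < 2 ^ 24 → duadTest k b m = true →
      {t | DuadFam (pt 23) (pt 0) (unmask 20) k b t}.ncard * l = 1920 →
      Nat.card (stabK (m :: [8388608, 1, 20])) = l →
      DuadFam (c (pt 23)) (c (pt 0)) (c • unmask 20) k b t →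
      ∃ g : PP, g ∈ M24 ∧ g (c (pt 23)) = c (pt 23) ∧ g (c (pt 0)) = c (pt 0) ∧
        g • c • unmask 20 = c • unmask 20 ∧ g • t = t' := by
    intro k b m l hm htest hl hs hk0
    have hk1 : DuadFam (c (pt 23)) (c (pt 0)) (c • unmask 20) k b t' :=
      ⟨ht', hk' ▸ hk0.2.1, hgood.symm.trans hk0.2.2⟩
    obtain ⟨g, hg, hfix, hge⟩ := exists_transport hc
      (P := fun t => DuadFam (c (pt 23)) (c (pt 0)) (c • unmask 20) k b t) (hk k b)
      (suborbit_std ((duadTest_iff hm).2 htest) (hinv k b) rfl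
        (by rw [card_stabK hch.1.1.1, hord.1, hl]) hs) hk0 hk1
    refine ⟨g, hg, ?_, ?_, hfix 20 (by simp), hge⟩
    · have := hfix (2 ^ 23) (by simp)
      rwa [smul_singleton_apply c 23 (by norm_num), smul_singleton_eq_iff] at this
    · have := hfix (2 ^ 0) (by simp)
      rwa [smul_singleton_apply c 0 (by norm_num), smul_singleton_eq_iff] at this
  obtain ⟨n, hn, hne⟩ := exists_pairMask (t := c⁻¹ • t) (by rw [Finset.card_smul_finset]; exact ht.1)
  have htc : t = c • unmask n := by rw [hne, smul_inv_smul]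
  subst htc
  have hfree : isFreePair n = true := by
    have h1 := ht.2.1; have h2 := ht.2.2
    rw [apply_mem_smul_iff, mem_unmask, idx_pt (by norm_num), Bool.not_eq_true] at h1 h2
    simp [isFreePair, ← card_unmask, ← Finset.card_smul_finset c (unmask n), ht.1, h1, h2]
  have hn20 : n ≠ 20 := fun e => hts (by rw [e])
  have hfam : ∀ {k b}, duadTest k b n = true →
      DuadFam (c (pt 23)) (c (pt 0)) (c • unmask 20) k b (c • unmask n) := fun h =>
    (hk _ _ _).2 ((duadTest_iff (pairMasks_checks.2 n hn)).2 h)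
  rcases duad_classes n hn hfree hn20 with h | h | h
  · exact tr 1 true 6 48 (by norm_num) (by decide +kernel) (by rw [n1])
      ((card_stabK hch.1.1.2).trans hord.2.1) (hfam h)
  · exact tr 0 true 96 64 (by norm_num) (by decide +kernel) (by rw [n2])
      ((card_stabK hch.1.2).trans hord.2.2.1) (hfam h)
  · exact tr 0 false 10 12 (by norm_num) (by decide +kernel) (by rw [n3])
      ((card_stabK hch.2).trans hord.2.2.2) (hfam h)

end CfsgLib.Golay
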