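import Cfsg.Agent.Lib.Golay.SuborbitCases

/-!
The suborbits of a point stabiliser in `Cfsg.M24` on the heptads.
-/

set_option autoImplicit false

namespace CfsgLib.Golay

open Cfsg
open scoped Pointwise

local notation "PP" => Equiv.Perm GolayPt

set_option maxHeartbeats 2000000 in
theorem heptadChain_ok0 :
    chainOK [8388608, 8391797] heptadChain.1 heptadChain.2 = true := by
  decide +kernel

set_option maxHeartbeats 2000000 in
theorem heptadChain_ok1 :
    chainOK [8414120, 8388608, 8391797] heptadChain1.1 heptadChain1.2 = true := by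
  decide +kernel

set_option maxHeartbeats 2000000 in
theorem heptadChain_ok2 :
    chainOK [8394986, 8388608, 8391797] heptadChain2.1 heptadChain2.2 = true := by
  decide +kernel

theorem heptadChains_ok : (chainOK [8388608, 8391797] heptadChain.1 heptadChain.2 &&
      chainOK [8414120, 8388608, 8391797] heptadChain1.1 heptadChain1.2 &&
      chainOK [8394986, 8388608, 8391797] heptadChain2.1 heptadChain2.2) = true := by
  simp only [heptadChain_ok0, heptadChain_ok1, heptadChain_ok2, Bool.and_self]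

theorem heptadOrders :
    [chainOrder heptadChain.1, chainOrder heptadChain1.1, chainOrder heptadChain2.1] =
      [40320, 360, 288] := by
  decide +kernel

/-- Heptads: suborbits 112, 140 of the stabiliser of a point. -/
theorem heptad_suborbits {x : GolayPt} {o : Finset GolayPt} (ho : o ∈ octads) (hx : x ∈ o) :
    {o' : Finset GolayPt | o' ∈ octads ∧ x ∈ o' ∧ (o ∩ o').card = 2}.ncard = 112 ∧
    {o' : Finset GolayPt | o' ∈ octads ∧ x ∈ o' ∧ (o ∩ o').card = 4}.ncard = 140 ∧
    ∀ o' o'' : Finset GolayPt, o' ∈ octads → o'' ∈ octads → x ∈ o' → x ∈ o'' →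
      (o ∩ o').card = (o ∩ o'').card → ∃ g : PP, g ∈ M24 ∧ g x = x ∧ g • o = o ∧ g • o' = o'' := by
  obtain ⟨q, hq⟩ : ∃ q, q ∉ o := by
    by_contra h
    push Not at h
    have := ho.2
    rw [Finset.eq_univ_iff_forall.2 h] at this
    simp at this
  obtain ⟨c, hc, rfl, rfl, -⟩ := exists_map_octad_out ho hx hq
  have hk : ∀ k, ∀ s, (c • s ∈ octads ∧ c (pt 23) ∈ c • s ∧
      (c • unmask octMask ∩ c • s).card = k) ↔
      (s ∈ octads ∧ pt 23 ∈ s ∧ (unmask octMask ∩ s).card = k) := fun k s => by
    rw [smul_octads_iff hc, apply_mem_smul_iff, card_smul_inter]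
  have hcount : ∀ k, {s | s ∈ octads ∧ pt 23 ∈ s ∧ (unmask octMask ∩ s).card = k}.ncard =
      countSpan basisMasks (fun n => popc n == 8 && (n.testBit 23 && popc (octMask &&& n) == k)) :=
    fun k => ncard_octads_sep _ _ fun n _ => by
      simp [card_unmask, ← unmask_and, idx_pt]
  have n2 := (hcount 2).trans (show _ = 112 by decide +kernel)
  have n4 := (hcount 4).trans (show _ = 140 by decide +kernel)
  refine ⟨(ncard_setOf_transport (hk 2)).trans n2, (ncard_setOf_transport (hk 4)).trans n4,
    fun o' o'' ho' ho'' hx' hx'' he => ?_⟩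
  have hch := heptadChains_ok
  simp only [Bool.and_eq_true] at hch
  have hord := heptadOrders
  simp only [List.cons.injEq, and_true] at hord
  have hinv : ∀ k, ∀ g ∈ stabK [8388608, 8391797],
      ∀ y ∈ {s | s ∈ octads ∧ pt 23 ∈ s ∧ (unmask octMask ∩ s).card = k},
        g • y ∈ {s | s ∈ octads ∧ pt 23 ∈ s ∧ (unmask octMask ∩ s).card = k} := by
    intro k g hg y ⟨h1, h2, h3⟩
    exact ⟨smul_mem_octads (stabK_le_M24 _ hg) h1,
      (mem_smul_of_fix (fix_pt_of_mem hg (i := 23) (by norm_num) (by simp)) y).2 h2,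
      (card_inter_smul_of_fix (fix_of_mem hg (n := octMask) (by simp [octMask])) y).trans h3⟩
  have tr : ∀ k m l, unmask m ∈ {s | s ∈ octads ∧ pt 23 ∈ s ∧ (unmask octMask ∩ s).card = k} →
      ({s | s ∈ octads ∧ pt 23 ∈ s ∧ (unmask octMask ∩ s).card = k}.ncard * l = 40320) →
      Nat.card (stabK [m, 8388608, 8391797]) = l →
      (c • unmask octMask ∩ o').card = k → ∃ g : PP, g ∈ M24 ∧ g (c (pt 23)) = c (pt 23) ∧
        g • c • unmask octMask = c • unmask octMask ∧ g • o' = o'' := by
    intro k m l hm hl hs hk'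
    obtain ⟨g, hg, hfix, hge⟩ := exists_transport hc
      (P := fun s => s ∈ octads ∧ c (pt 23) ∈ s ∧ (c • unmask octMask ∩ s).card = k) (hk k)
      (suborbit_std hm (hinv k) rfl (by rw [card_stabK hch.1.1, hord.1, hl]) hs)
      ⟨ho', hx', hk'⟩ ⟨ho'', hx'', he ▸ hk'⟩
    refine ⟨g, hg, ?_, hfix octMask (by simp [octMask]), hge⟩
    have := hfix (2 ^ 23) (by simp)
    rwa [smul_singleton_apply c 23 (by norm_num), smul_singleton_eq_iff] at this
  rcases inter_cases ho ho' with h | h | h | h
  · exact absurd h (Finset.card_ne_zero.2 ⟨_, Finset.mem_inter.2 ⟨hx, hx'⟩⟩)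
  · exact tr 2 8414120 360 ⟨mem_octads_iff.2 ⟨_, inCode_iff.1 (by decide +kernel), by decide +kernel,
      rfl⟩, by decide +kernel, by decide +kernel⟩ (by rw [n2])
      ((card_stabK hch.1.2).trans hord.2.1) h
  · exact tr 4 8394986 288 ⟨mem_octads_iff.2 ⟨_, inCode_iff.1 (by decide +kernel), by decide +kernel,
      rfl⟩, by decide +kernel, by decide +kernel⟩ (by rw [n4])
      ((card_stabK hch.2).trans hord.2.2) h
  · refine ⟨1, one_mem _, rfl, one_smul _ _, ?_⟩
    rw [one_smul, inter_eight ho ho' h, inter_eight ho ho'' (he ▸ h)]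

end CfsgLib.Golay
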