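import Cfsg.Agent.Lib.Golay.SuborbitCases

/-!
Suborbits of a point or two-point stabiliser in `Cfsg.M24` on the octads through both points.
-/

set_option autoImplicit false

namespace CfsgLib.Golay

open Cfsg
open scoped Pointwise

local notation "PP" => Equiv.Perm GolayPt

set_option maxHeartbeats 2000000 in
theorem hexadChain_ok0 :
    chainOK [1, 8388608, 8391797] hexadChain.1 hexadChain.2 = true := by
  decide +kernel

set_option maxHeartbeats 2000000 in
theorem hexadChain_ok1 :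
    chainOK [8499969, 1, 8388608, 8391797] hexadChain1.1 hexadChain1.2 = true := by
  decide +kernel

set_option maxHeartbeats 2000000 in
theorem hexadChain_ok2 :
    chainOK [8398155, 1, 8388608, 8391797] hexadChain2.1 hexadChain2.2 = true := by
  decide +kernel

theorem hexadChains_ok : (chainOK [1, 8388608, 8391797] hexadChain.1 hexadChain.2 &&
      chainOK [8499969, 1, 8388608, 8391797] hexadChain1.1 hexadChain1.2 &&
      chainOK [8398155, 1, 8388608, 8391797] hexadChain2.1 hexadChain2.2) = true := by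
  simp only [hexadChain_ok0, hexadChain_ok1, hexadChain_ok2, Bool.and_self]

theorem hexadOrders :
    [chainOrder hexadChain.1, chainOrder hexadChain1.1, chainOrder hexadChain2.1] =
      [5760, 360, 96] := by
  decide +kernel

/-- Octads through two points: suborbits 16, 60. -/
theorem hexad_suborbits {p q : GolayPt} (hpq : p ≠ q) {o : Finset GolayPt} (ho : o ∈ octads)
    (hp : p ∈ o) (hq : q ∈ o) :
    {s : Finset GolayPt | s ∈ octads ∧ p ∈ s ∧ q ∈ s ∧ (o ∩ s).card = 2}.ncard = 16 ∧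
    {s : Finset GolayPt | s ∈ octads ∧ p ∈ s ∧ q ∈ s ∧ (o ∩ s).card = 4}.ncard = 60 ∧
    ∀ o' o'' : Finset GolayPt, (o' ∈ octads ∧ p ∈ o' ∧ q ∈ o') →
      (o'' ∈ octads ∧ p ∈ o'' ∧ q ∈ o'') → (o ∩ o').card = (o ∩ o'').card →
      ∃ g : PP, g ∈ M24 ∧ g p = p ∧ g q = q ∧ g • o = o ∧ g • o' = o'' := by
  obtain ⟨c, hc, rfl, rfl, rfl⟩ := exists_map_octad_two ho hp hq hpq
  have hk : ∀ k, ∀ s, (c • s ∈ octads ∧ (c (pt 23) ∈ c • s ∧ c (pt 0) ∈ c • s) ∧
      (c • unmask octMask ∩ c • s).card = k) ↔ (s ∈ octads ∧ (pt 23 ∈ s ∧ pt 0 ∈ s) ∧ (unmask octMask ∩ s).card = k) := fun k s => by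
    rw [smul_octads_iff hc, apply_mem_smul_iff, apply_mem_smul_iff, card_smul_inter]
  have hcount : ∀ k, {s | s ∈ octads ∧ (pt 23 ∈ s ∧ pt 0 ∈ s) ∧ (unmask octMask ∩ s).card = k}.ncard =
      countSpan basisMasks (fun n => popc n == 8 && ((n.testBit 23 && n.testBit 0) && popc (octMask &&& n) == k)) :=
    fun k => ncard_octads_sep _ _ fun n _ => by
      simp [card_unmask, ← unmask_and, idx_pt, and_assoc]
  have n2 := (hcount 2).trans (show _ = 16 by decide +kernel)
  have n4 := (hcount 4).trans (show _ = 60 by decide +kernel)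
  refine ⟨?_, ?_, fun o' o'' ho' ho'' he => ?_⟩
  · simp only [and_assoc] at hk n2 ⊢
    exact (ncard_setOf_transport (hk 2)).trans n2
  · simp only [and_assoc] at hk n4 ⊢
    exact (ncard_setOf_transport (hk 4)).trans n4
  have hch := hexadChains_ok
  simp only [Bool.and_eq_true] at hch
  have hord := hexadOrders
  simp only [List.cons.injEq, and_true] at hord
  have hinv : ∀ k, ∀ g ∈ stabK [1, 8388608, 8391797],
      ∀ y ∈ {s | s ∈ octads ∧ (pt 23 ∈ s ∧ pt 0 ∈ s) ∧ (unmask octMask ∩ s).card = k}, g • y ∈ {s | s ∈ octads ∧ (pt 23 ∈ s ∧ pt 0 ∈ s) ∧ (unmask octMask ∩ s).card = k} := by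
    intro k g hg y hy
    simp only [Set.mem_ofPred_eq] at hy ⊢
    rw [card_inter_smul_of_fix (fix_of_mem hg (n := octMask) (by simp [octMask])),
      mem_smul_of_fix (fix_pt_of_mem hg (i := 23) (by norm_num) (by simp)),
      mem_smul_of_fix (fix_pt_of_mem hg (i := 0) (by norm_num) (by simp))]
    exact ⟨smul_mem_octads (stabK_le_M24 _ hg) hy.1, hy.2⟩
  have tr : ∀ k m l, unmask m ∈ {s | s ∈ octads ∧ (pt 23 ∈ s ∧ pt 0 ∈ s) ∧ (unmask octMask ∩ s).card = k} →
      ({s | s ∈ octads ∧ (pt 23 ∈ s ∧ pt 0 ∈ s) ∧ (unmask octMask ∩ s).card = k}.ncard * l = 5760) →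
      Nat.card (stabK (m :: [1, 8388608, 8391797])) = l → (c • unmask octMask ∩ o').card = k →
      ∃ g : PP, g ∈ M24 ∧ g (c (pt 23)) = c (pt 23) ∧ g (c (pt 0)) = c (pt 0) ∧
        g • c • unmask octMask = c • unmask octMask ∧ g • o' = o'' := by
    intro k m l hm hl hs hk'
    obtain ⟨g, hg, hfix, hge⟩ := exists_transport hc
      (P := fun s => s ∈ octads ∧ (c (pt 23) ∈ s ∧ c (pt 0) ∈ s) ∧ (c • unmask octMask ∩ s).card = k) (hk k)
      (suborbit_std hm (hinv k) rfl (by rw [card_stabK hch.1.1, hord.1, hl]) hs)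
      ⟨ho'.1, ho'.2, hk'⟩ ⟨ho''.1, ho''.2, he ▸ hk'⟩
    refine ⟨g, hg, ?_, ?_, hfix octMask (by simp [octMask]), hge⟩
    · have := hfix (2 ^ 23) (by simp)
      rwa [smul_singleton_apply c 23 (by norm_num), smul_singleton_eq_iff] at this
    · have := hfix (2 ^ 0) (by simp)
      rwa [smul_singleton_apply c 0 (by norm_num), smul_singleton_eq_iff] at this
  rcases inter_cases ho ho'.1 with h | h | h | h
  · exact absurd h (Finset.card_ne_zero.2 ⟨_, Finset.mem_inter.2 ⟨hp, ho'.2.1⟩⟩)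
  · exact tr 2 8499969 360 ⟨mem_octads_iff.2 ⟨_, inCode_iff.1 (by decide +kernel), by decide +kernel, rfl⟩,
      by decide +kernel, by decide +kernel⟩ (by rw [n2]) ((card_stabK hch.1.2).trans hord.2.1) h
  · exact tr 4 8398155 96 ⟨mem_octads_iff.2 ⟨_, inCode_iff.1 (by decide +kernel), by decide +kernel, rfl⟩,
      by decide +kernel, by decide +kernel⟩ (by rw [n4]) ((card_stabK hch.2).trans hord.2.2) h
  · refine ⟨1, one_mem _, rfl, rfl, one_smul _ _, ?_⟩
    rw [one_smul, inter_eight ho ho'.1 h, inter_eight ho ho''.1 (he ▸ h)]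

end CfsgLib.Golay
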