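import Cfsg.Agent.Lib.Golay.SuborbitCases

/-!
Suborbits of a point or two-point stabiliser in `Cfsg.M24` on octads avoiding the point.
-/

set_option autoImplicit false

namespace CfsgLib.Golay

open Cfsg
open scoped Pointwise

local notation "PP" => Equiv.Perm GolayPt

set_option maxHeartbeats 2000000 in
theorem octadAvoidChain_ok0 :
    chainOK [2, 8391797] octadAvoidChain.1 octadAvoidChain.2 = true := by
  decide +kernel

set_option maxHeartbeats 2000000 in
theorem octadAvoidChain_ok1 :
    chainOK [762504, 2, 8391797] octadAvoidChain1.1 octadAvoidChain1.2 = true := by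
  decide +kernel

set_option maxHeartbeats 2000000 in
theorem octadAvoidChain_ok2 :
    chainOK [63108, 2, 8391797] octadAvoidChain2.1 octadAvoidChain2.2 = true := by
  decide +kernel

set_option maxHeartbeats 2000000 in
theorem octadAvoidChain_ok3 :
    chainOK [15777, 2, 8391797] octadAvoidChain3.1 octadAvoidChain3.2 = true := by
  decide +kernel

theorem octadAvoidChains_ok : (chainOK [2, 8391797] octadAvoidChain.1 octadAvoidChain.2 &&
      chainOK [762504, 2, 8391797] octadAvoidChain1.1 octadAvoidChain1.2 &&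
      chainOK [63108, 2, 8391797] octadAvoidChain2.1 octadAvoidChain2.2 &&
      chainOK [15777, 2, 8391797] octadAvoidChain3.1 octadAvoidChain3.2) = true := by
  simp only [octadAvoidChain_ok0, octadAvoidChain_ok1, octadAvoidChain_ok2, octadAvoidChain_ok3, Bool.and_self]

theorem octadAvoidOrders :
    [chainOrder octadAvoidChain.1, chainOrder octadAvoidChain1.1, chainOrder octadAvoidChain2.1, chainOrder octadAvoidChain3.1] =
      [20160, 1344, 72, 96] := by
  decide +kernel

set_option maxHeartbeats 1600000 in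
/-- Octads avoiding a point: suborbits 15, 210, 280. -/
theorem octadAvoid_suborbits {x : GolayPt} {o : Finset GolayPt} (ho : o ∈ octads) (hx : x ∉ o) :
    {o' : Finset GolayPt | o' ∈ octads ∧ x ∉ o' ∧ (o ∩ o').card = 0}.ncard = 15 ∧
    {o' : Finset GolayPt | o' ∈ octads ∧ x ∉ o' ∧ (o ∩ o').card = 4}.ncard = 210 ∧
    {o' : Finset GolayPt | o' ∈ octads ∧ x ∉ o' ∧ (o ∩ o').card = 2}.ncard = 280 ∧
    ∀ o' o'' : Finset GolayPt, o' ∈ octads → o'' ∈ octads → x ∉ o' → x ∉ o'' →
      (o ∩ o').card = (o ∩ o'').card → ∃ g : PP, g ∈ M24 ∧ g x = x ∧ g • o = o ∧ g • o' = o'' := by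
  obtain ⟨p, hp⟩ : ∃ p, p ∈ o := Finset.card_pos.1 (by rw [ho.2]; norm_num)
  obtain ⟨c, hc, rfl, -, rfl⟩ := exists_map_octad_out ho hp hx
  have hk : ∀ k, ∀ s, (c • s ∈ octads ∧ c (pt 1) ∉ c • s ∧
      (c • unmask octMask ∩ c • s).card = k) ↔ (s ∈ octads ∧ pt 1 ∉ s ∧ (unmask octMask ∩ s).card = k) := fun k s => by
    rw [smul_octads_iff hc, apply_mem_smul_iff, card_smul_inter]
  have hcount : ∀ k, {s | s ∈ octads ∧ pt 1 ∉ s ∧ (unmask octMask ∩ s).card = k}.ncard =
      countSpan basisMasks (fun n => popc n == 8 && (!n.testBit 1 && popc (octMask &&& n) == k)) :=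
    fun k => ncard_octads_sep _ _ fun n _ => by
      simp [card_unmask, ← unmask_and, idx_pt, and_assoc]
  have n0 := (hcount 0).trans (show _ = 15 by decide +kernel)
  have n2 := (hcount 2).trans (show _ = 280 by decide +kernel)
  have n4 := (hcount 4).trans (show _ = 210 by decide +kernel)
  refine ⟨(ncard_setOf_transport (hk 0)).trans n0, (ncard_setOf_transport (hk 4)).trans n4,
    (ncard_setOf_transport (hk 2)).trans n2, fun o' o'' ho' ho'' hx' hx'' he => ?_⟩
  have hch := octadAvoidChains_ok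
  simp only [Bool.and_eq_true] at hch
  have hord := octadAvoidOrders
  simp only [List.cons.injEq, and_true] at hord
  have hinv : ∀ k, ∀ g ∈ stabK [2, 8391797],
      ∀ y ∈ {s | s ∈ octads ∧ pt 1 ∉ s ∧ (unmask octMask ∩ s).card = k}, g • y ∈ {s | s ∈ octads ∧ pt 1 ∉ s ∧ (unmask octMask ∩ s).card = k} := by
    intro k g hg y hy
    simp only [Set.mem_ofPred_eq] at hy ⊢
    rw [card_inter_smul_of_fix (fix_of_mem hg (n := octMask) (by simp [octMask])),
      mem_smul_of_fix (fix_pt_of_mem hg (i := 1) (by norm_num) (by simp))]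
    exact ⟨smul_mem_octads (stabK_le_M24 _ hg) hy.1, hy.2⟩
  have tr : ∀ k m l, unmask m ∈ {s | s ∈ octads ∧ pt 1 ∉ s ∧ (unmask octMask ∩ s).card = k} →
      ({s | s ∈ octads ∧ pt 1 ∉ s ∧ (unmask octMask ∩ s).card = k}.ncard * l = 20160) →
      Nat.card (stabK (m :: [2, 8391797])) = l → (c • unmask octMask ∩ o').card = k →
      ∃ g : PP, g ∈ M24 ∧ g (c (pt 1)) = c (pt 1) ∧
        g • c • unmask octMask = c • unmask octMask ∧ g • o' = o'' := by
    intro k m l hm hl hs hk'
    obtain ⟨g, hg, hfix, hge⟩ := exists_transport hc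
      (P := fun s => s ∈ octads ∧ c (pt 1) ∉ s ∧ (c • unmask octMask ∩ s).card = k) (hk k)
      (suborbit_std hm (hinv k) rfl (by rw [card_stabK hch.1.1.1, hord.1, hl]) hs)
      ⟨ho', hx', hk'⟩ ⟨ho'', hx'', he ▸ hk'⟩
    refine ⟨g, hg, ?_, hfix octMask (by simp [octMask]), hge⟩
    · have := hfix (2 ^ 1) (by simp)
      rwa [smul_singleton_apply c 1 (by norm_num), smul_singleton_eq_iff] at this
  rcases inter_cases ho ho' with h | h | h | h
  · exact tr 0 762504 1344 ⟨mem_octads_iff.2 ⟨_, inCode_iff.1 (by decide +kernel), by decide +kernel, rfl⟩,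
      by decide +kernel, by decide +kernel⟩ (by rw [n0]) ((card_stabK hch.1.1.2).trans hord.2.1) h
  · exact tr 2 63108 72 ⟨mem_octads_iff.2 ⟨_, inCode_iff.1 (by decide +kernel), by decide +kernel, rfl⟩,
      by decide +kernel, by decide +kernel⟩ (by rw [n2]) ((card_stabK hch.1.2).trans hord.2.2.1) h
  · exact tr 4 15777 96 ⟨mem_octads_iff.2 ⟨_, inCode_iff.1 (by decide +kernel), by decide +kernel, rfl⟩,
      by decide +kernel, by decide +kernel⟩ (by rw [n4]) ((card_stabK hch.2).trans hord.2.2.2) h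
  · refine ⟨1, one_mem _, rfl, one_smul _ _, ?_⟩
    rw [one_smul, inter_eight ho ho' h, inter_eight ho ho'' (he ▸ h)]

end CfsgLib.Golay
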