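import Cfsg.Agent.Lib.Golay.Stab
import Cfsg.Agent.Lib.Golay.CertSub2

/-!
Suborbits of stabilisers in `Cfsg.M24`: an invariant family of the right size is one orbit, as the
orders of `stabK base` and `stabK (m :: base)` are certified; transport to arbitrary configurations.
-/

set_option autoImplicit false

namespace CfsgLib.Golay

open Cfsg
open scoped Pointwise

local notation "PP" => Equiv.Perm GolayPt

/-- An invariant family containing a set whose stabiliser has the right order is one orbit. -/
theorem suborbit_std {base : List ℕ} {m n k : ℕ} {Y : Set (Finset GolayPt)}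
    (hm : unmask m ∈ Y) (hinv : ∀ g ∈ stabK base, ∀ y ∈ Y, g • y ∈ Y) (hY : Y.ncard = n)
    (hbase : Nat.card (stabK base) = n * k) (hsub : Nat.card (stabK (m :: base)) = k) :
    ∀ y ∈ Y, ∀ z ∈ Y, ∃ g ∈ stabK base, g • y = z := by
  have he : (MulAction.stabilizer (stabK base) (unmask m)).map (stabK base).subtype =
      stabK (m :: base) := by
    ext g
    change _ ↔ g ∈ stabK base ⊓ MulAction.stabilizer PP (unmask m)
    constructor
    · rintro ⟨a, ha, rfl⟩; exact ⟨a.2, ha⟩
    · rintro ⟨h1, h2⟩; exact ⟨⟨g, h1⟩, h2, rfl⟩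
  have horb := orbit_eq_of_card (G := stabK base) (x := unmask m) (Y := Y) (Set.toFinite _) hm
    (fun g y hy => hinv g g.2 y hy) (by
      rw [← Subgroup.card_map_of_injective (f := (stabK base).subtype) Subtype.val_injective, he,
        hY, hsub, hbase])
  intro y hy z hz
  rw [← horb] at hy hz
  obtain ⟨a, rfl⟩ := hy
  obtain ⟨b, rfl⟩ := hz
  refine ⟨(b * a⁻¹ : stabK base), SetLike.coe_mem _, ?_⟩
  show (b * a⁻¹) • a • unmask m = b • unmask m
  rw [mul_smul, inv_smul_smul]

/-- A family defined by a transported predicate is the translate of the standard one. -/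
theorem setOf_eq_image {c : PP} {P Q : Finset GolayPt → Prop} (h : ∀ s, P (c • s) ↔ Q s) :
    {s | P s} = (fun s : Finset GolayPt => c • s) '' {s | Q s} := by
  ext s
  constructor
  · intro hs
    exact ⟨c⁻¹ • s, (h _).1 (by rwa [smul_inv_smul]), smul_inv_smul c s⟩
  · rintro ⟨t, ht, rfl⟩
    exact (h t).2 ht

theorem ncard_setOf_transport {c : PP} {P Q : Finset GolayPt → Prop} (h : ∀ s, P (c • s) ↔ Q s) :
    {s | P s}.ncard = {s | Q s}.ncard := by
  rw [setOf_eq_image h, Set.ncard_image_of_injective _ (MulAction.injective c)]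

/-- Transport of transitivity on a family from a standard configuration. -/
theorem exists_transport {base : List ℕ} {c : PP} (hc : c ∈ M24) {P Q : Finset GolayPt → Prop}
    (h : ∀ s, P (c • s) ↔ Q s)
    (htr : ∀ y ∈ {s | Q s}, ∀ z ∈ {s | Q s}, ∃ g ∈ stabK base, g • y = z)
    {y z : Finset GolayPt} (hy : P y) (hz : P z) :
    ∃ g ∈ M24, (∀ n ∈ base, g • (c • unmask n) = c • unmask n) ∧ g • y = z := by
  obtain ⟨k, hk, hke⟩ := htr (c⁻¹ • y) ((h _).1 (by rwa [smul_inv_smul])) (c⁻¹ • z)
    ((h _).1 (by rwa [smul_inv_smul]))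
  obtain ⟨hk1, hk2⟩ := mem_stabK.1 hk
  refine ⟨c * k * c⁻¹, mul_mem (mul_mem hc hk1) (inv_mem hc), fun n hn => ?_, ?_⟩
  · rw [mul_smul, mul_smul, inv_smul_smul, hk2 n hn]
  · rw [mul_smul, mul_smul, hke, smul_inv_smul]

theorem smul_octads_iff {c : PP} (hc : c ∈ M24) {s : Finset GolayPt} :
    c • s ∈ octads ↔ s ∈ octads :=
  ⟨fun h => by simpa using smul_mem_octads (inv_mem hc) h, smul_mem_octads hc⟩

theorem smul_dodecads_iff {c : PP} (hc : c ∈ M24) {s : Finset GolayPt} :
    c • s ∈ dodecads ↔ s ∈ dodecads :=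
  ⟨fun h => by simpa using smul_mem_dodecads (inv_mem hc) h, smul_mem_dodecads hc⟩

theorem apply_mem_smul_iff (c : PP) (a : GolayPt) (s : Finset GolayPt) : c a ∈ c • s ↔ a ∈ s :=
  Finset.smul_mem_smul_finset_iff c

theorem smul_singleton_apply (c : PP) (i : ℕ) (hi : i < 24) :
    c • unmask (2 ^ i) = {c (pt i)} := by
  rw [unmask_two_pow_of_lt hi, Finset.smul_finset_singleton, Equiv.Perm.smul_def]

theorem smul_singleton_eq_iff (g : PP) (a : GolayPt) : g • ({a} : Finset GolayPt) = {a} ↔ g a = a := by
  rw [Finset.smul_finset_singleton, Finset.singleton_inj, Equiv.Perm.smul_def]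

theorem card_smul_inter (c : PP) (s t : Finset GolayPt) : ((c • s) ∩ (c • t)).card = (s ∩ t).card := by
  rw [← Finset.smul_finset_inter, Finset.card_smul_finset]

/-- `M24` is transitive on octads with a point inside and a point outside. -/
theorem exists_map_octad_out {o : Finset GolayPt} (ho : o ∈ octads) {p q : GolayPt} (hp : p ∈ o)
    (hq : q ∉ o) :
    ∃ c ∈ M24, c • unmask octMask = o ∧ c (pt 23) = p ∧ c (pt 1) = q := by
  have hc1 : octMask.testBit 23 = true ∧ octMask.testBit 1 = false := by decide +kernel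
  obtain ⟨s, hs, hsc⟩ := Finset.exists_subset_card_eq (s := o.erase p) (show 4 ≤ (o.erase p).card by
    rw [Finset.card_erase_of_mem hp, ho.2]; norm_num)
  let e := (Finset.equivFinOfCardEq hsc).symm
  have hep : ∀ i, (e i : GolayPt) ≠ p := fun i => (Finset.mem_erase.1 (hs (e i).2)).1
  let x : Fin 5 ↪ GolayPt := ⟨![pt 23, pt 0, pt 2, pt 4, pt 5], by decide +kernel⟩
  let y : Fin 5 ↪ GolayPt := ⟨![p, e 0, e 1, e 2, e 3], by
    have he : Function.Injective fun i => (e i : GolayPt) := Subtype.val_injective.comp e.injective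
    intro i j h
    fin_cases i <;> fin_cases j <;>
      first
        | rfl
        | (simp at h <;> first
            | exact absurd h (hep _)
            | exact absurd h.symm (hep _))⟩
  obtain ⟨c, hc, hcx⟩ := exists_M24_map x y
  have hxm : ∀ i, x i ∈ unmask octMask := by decide +kernel
  have hco : c • unmask octMask = o := by
    refine octad_unique (smul_mem_octads hc octMask_mem) ho ?_
    have hsub : Finset.univ.map y ⊆ c • unmask octMask ∩ o := by
      intro a ha
      obtain ⟨i, -, rfl⟩ := Finset.mem_map.1 ha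
      refine Finset.mem_inter.2 ⟨hcx i ▸ Finset.smul_mem_smul_finset (hxm i), ?_⟩
      fin_cases i <;> first | exact hp | exact Finset.mem_of_mem_erase (hs (e _).2)
    simpa using Finset.card_le_card hsub
  have h16 : Nat.card (stabK octadPts) = 16 := card_stabK_octadPts
  have hY : {s : Finset GolayPt | s.card = 1 ∧ Disjoint s (unmask octMask)}.ncard = 16 := by
    have : {s : Finset GolayPt | s.card = 1 ∧ Disjoint s (unmask octMask)} =
        (fun a => ({a} : Finset GolayPt)) '' ↑((unmask octMask)ᶜ) := by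
      ext s
      simp only [Set.mem_ofPred_eq, Finset.card_eq_one, Set.mem_image, Finset.mem_coe,
        Finset.mem_compl]
      constructor
      · rintro ⟨⟨a, rfl⟩, hd⟩; exact ⟨a, Finset.disjoint_singleton_left.1 hd, rfl⟩
      · rintro ⟨a, ha, rfl⟩; exact ⟨⟨a, rfl⟩, Finset.disjoint_singleton_left.2 ha⟩
    rw [this, Set.ncard_image_of_injective _ Finset.singleton_injective, Set.ncard_coe_finset]
    decide +kernel
  have hfix : ∀ g ∈ stabK octadPts, g • unmask octMask = unmask octMask ∧ g (pt 23) = pt 23 := by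
    intro g hg
    have hg' : g ∈ M24 ⊓ fixingSubgroup PP ((unmask octMask : Finset GolayPt) : Set GolayPt) :=
      octadPts_inf ▸ hg
    have h := (mem_fixingSubgroup_iff PP).1 (Subgroup.mem_inf.1 hg').2
    refine ⟨?_, h _ (Finset.mem_coe.2 ((pt_mem_unmask (by norm_num)).2 hc1.1))⟩
    ext a
    constructor
    · intro ha
      obtain ⟨b, hb, rfl⟩ := Finset.mem_smul_finset.1 ha
      rwa [h b hb]
    · exact fun ha => Finset.mem_smul_finset.2 ⟨a, ha, h a ha⟩
  have hq' : c⁻¹ q ∉ unmask octMask := fun h => hq (by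
    rw [← hco]
    simpa using Finset.smul_mem_smul_finset (a := c) h)
  obtain ⟨g, hg, hge⟩ := suborbit_std (base := octadPts) (m := 2 ^ 1) (n := 16) (k := 1)
    (Y := {s : Finset GolayPt | s.card = 1 ∧ Disjoint s (unmask octMask)})
    ⟨by decide +kernel, by decide +kernel⟩
    (fun g hg y hy => ⟨(Finset.card_smul_finset g y).trans hy.1, by
      rw [← (hfix g hg).1, Finset.disjoint_iff_inter_eq_empty, ← Finset.smul_finset_inter,
        Finset.disjoint_iff_inter_eq_empty.1 hy.2, Finset.smul_finset_empty]⟩) hY (by rw [h16])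
    (card_stabK (levels := []) (final := finalOctad) (by decide +kernel))
    (unmask (2 ^ 1)) ⟨by decide +kernel, by decide +kernel⟩ {c⁻¹ q}
    ⟨Finset.card_singleton _, Finset.disjoint_singleton_left.2 hq'⟩
  rw [unmask_two_pow_of_lt (by norm_num : (1:ℕ) < 24), Finset.smul_finset_singleton,
    Finset.singleton_inj, Equiv.Perm.smul_def] at hge
  refine ⟨c * g, mul_mem hc (stabK_le_M24 _ hg), by rw [mul_smul, (hfix g hg).1, hco], ?_, ?_⟩
  · rw [Equiv.Perm.mul_apply, (hfix g hg).2]; exact hcx 0
  · rw [Equiv.Perm.mul_apply, hge]; exact c.apply_symm_apply q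

end CfsgLib.Golay
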