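import Cfsg.Agent.Lib.Golay.Suborbit

/-!
Common lemmas for the suborbit computations in point and two-point stabilisers of `Cfsg.M24`.
-/

set_option autoImplicit false

namespace CfsgLib.Golay

open Cfsg
open scoped Pointwise

local notation "PP" => Equiv.Perm GolayPt

theorem ncard_octads_sep (P : Finset GolayPt → Prop) (p : ℕ → Bool)
    (hp : ∀ n ∈ codeMasks, (p n = true ↔ P (unmask n))) :
    {s | s ∈ octads ∧ P s}.ncard = countSpan basisMasks (fun n => popc n == 8 && p n) := by
  rw [← ncard_supports_sep (fun s => s.card = 8 ∧ P s) _ fun n hn => by simp [card_unmask, hp n hn]]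
  congr 1
  ext s
  exact and_assoc

theorem ncard_dodecads_sep (P : Finset GolayPt → Prop) (p : ℕ → Bool)
    (hp : ∀ n ∈ codeMasks, (p n = true ↔ P (unmask n))) :
    {s | s ∈ dodecads ∧ P s}.ncard = countSpan basisMasks (fun n => popc n == 12 && p n) := by
  rw [← ncard_supports_sep (fun s => s.card = 12 ∧ P s) _ fun n hn => by simp [card_unmask, hp n hn]]
  congr 1
  ext s
  exact and_assoc

theorem fix_of_mem {base : List ℕ} {g : PP} (hg : g ∈ stabK base) {n : ℕ} (hn : n ∈ base) :
    g • unmask n = unmask n := (mem_stabK.1 hg).2 n hn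

theorem fix_pt_of_mem {base : List ℕ} {g : PP} (hg : g ∈ stabK base) {i : ℕ} (hi : i < 24)
    (hn : 2 ^ i ∈ base) : g (pt i) = pt i := by
  have := fix_of_mem hg hn
  rwa [unmask_two_pow_of_lt hi, smul_singleton_eq_iff] at this

theorem mem_smul_of_fix {g : PP} {a : GolayPt} (h : g a = a) (s : Finset GolayPt) :
    a ∈ g • s ↔ a ∈ s := by
  conv_lhs => rw [← h]
  exact apply_mem_smul_iff g a s

theorem card_inter_smul_of_fix {g : PP} {b : Finset GolayPt} (h : g • b = b) (s : Finset GolayPt) :
    (b ∩ g • s).card = (b ∩ s).card := by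
  conv_lhs => rw [← h]
  exact card_smul_inter g b s

/-- `M24` is transitive on octads with two points inside. -/
theorem exists_map_octad_two {o : Finset GolayPt} (ho : o ∈ octads) {p q : GolayPt} (hp : p ∈ o)
    (hq : q ∈ o) (hpq : p ≠ q) :
    ∃ c ∈ M24, c • unmask octMask = o ∧ c (pt 23) = p ∧ c (pt 0) = q := by
  obtain ⟨s, hs, hsc⟩ := Finset.exists_subset_card_eq (s := (o.erase p).erase q)
    (show 3 ≤ ((o.erase p).erase q).card by
      rw [Finset.card_erase_of_mem (Finset.mem_erase.2 ⟨hpq.symm, hq⟩), Finset.card_erase_of_mem hp,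
        ho.2]; norm_num)
  let e := (Finset.equivFinOfCardEq hsc).symm
  have hep : ∀ i, (e i : GolayPt) ≠ p := fun i =>
    (Finset.mem_erase.1 (Finset.mem_erase.1 (hs (e i).2)).2).1
  have heq : ∀ i, (e i : GolayPt) ≠ q := fun i => (Finset.mem_erase.1 (hs (e i).2)).1
  let x : Fin 5 ↪ GolayPt := ⟨![pt 23, pt 0, pt 2, pt 4, pt 5], by decide +kernel⟩
  let y : Fin 5 ↪ GolayPt := ⟨![p, q, e 0, e 1, e 2], by
    have he : Function.Injective fun i => (e i : GolayPt) := Subtype.val_injective.comp e.injective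
    intro i j h
    fin_cases i <;> fin_cases j <;>
      first
        | rfl
        | (simp at h <;> first
            | exact absurd h (hep _)
            | exact absurd h.symm (hep _)
            | exact absurd h (heq _)
            | exact absurd h.symm (heq _)
            | exact absurd h hpq
            | exact absurd h.symm hpq)⟩
  obtain ⟨c, hc, hcx⟩ := exists_M24_map x y
  have hxm : ∀ i, x i ∈ unmask octMask := by decide +kernel
  refine ⟨c, hc, octad_unique (smul_mem_octads hc octMask_mem) ho ?_, hcx 0, hcx 1⟩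
  have hsub : Finset.univ.map y ⊆ c • unmask octMask ∩ o := by
    intro a ha
    obtain ⟨i, -, rfl⟩ := Finset.mem_map.1 ha
    refine Finset.mem_inter.2 ⟨hcx i ▸ Finset.smul_mem_smul_finset (hxm i), ?_⟩
    fin_cases i <;> first
      | exact hp
      | exact hq
      | exact Finset.mem_of_mem_erase (Finset.mem_of_mem_erase (hs (e _).2))
  simpa using Finset.card_le_card hsub

theorem inter_eight {o o' : Finset GolayPt} (ho : o ∈ octads) (ho' : o' ∈ octads)
    (h : (o ∩ o').card = 8) : o' = o :=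
  (octad_unique ho ho' (by omega)).symm

theorem inter_cases {o o' : Finset GolayPt} (ho : o ∈ octads) (ho' : o' ∈ octads) :
    (o ∩ o').card = 0 ∨ (o ∩ o').card = 2 ∨ (o ∩ o').card = 4 ∨ (o ∩ o').card = 8 := by
  by_cases h : o = o'
  · subst h; rw [Finset.inter_self, ho.2]; omega
  · have := octad_inter_card ho ho' h; omega

end CfsgLib.Golay

namespace CfsgLib.Golay

open Cfsg
open scoped Pointwise

/-- The two-point stabiliser is transitive on the octads through the first avoiding the second. -/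
theorem octadInOut_transitive {p q : GolayPt} {o o' : Finset GolayPt}
    (ho : o ∈ octads ∧ p ∈ o ∧ q ∉ o) (ho' : o' ∈ octads ∧ p ∈ o' ∧ q ∉ o') :
    ∃ g : Equiv.Perm GolayPt, g ∈ M24 ∧ g p = p ∧ g q = q ∧ g • o = o' := by
  obtain ⟨c, hc, hco, hcp, hcq⟩ := exists_map_octad_out ho.1 ho.2.1 ho.2.2
  obtain ⟨d, hd, hdo, hdp, hdq⟩ := exists_map_octad_out ho'.1 ho'.2.1 ho'.2.2
  refine ⟨d * c⁻¹, mul_mem hd (inv_mem hc), ?_, ?_, by rw [mul_smul, ← hco, inv_smul_smul, hdo]⟩
  · rw [Equiv.Perm.mul_apply, ← hcp, Equiv.Perm.inv_def, Equiv.symm_apply_apply, hdp, hcp]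
  · rw [Equiv.Perm.mul_apply, ← hcq, Equiv.Perm.inv_def, Equiv.symm_apply_apply, hdq, hcq]

theorem ncard_octadInOut {p q : GolayPt} (hpq : p ≠ q) :
    {x : Finset GolayPt | x ∈ octads ∧ p ∈ x ∧ q ∉ x}.ncard = 176 := by
  obtain ⟨⟨c, hc⟩, hcp, hcq⟩ := exists_M24_map_two hpq
  change c (pt 23) = p at hcp
  change c (pt 0) = q at hcq
  subst hcp hcq
  rw [ncard_setOf_transport (c := c) (Q := fun s => s ∈ octads ∧ (pt 23 ∈ s ∧ pt 0 ∉ s)) fun s => by
      rw [smul_octads_iff hc, apply_mem_smul_iff, apply_mem_smul_iff],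
    ncard_octads_sep _ (fun n => n.testBit 23 && !n.testBit 0) fun n _ => by simp [idx_pt]]
  decide +kernel

end CfsgLib.Golay
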